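import Cfsg.Agent.Lib.MinDegForms.SpEven

/-!
Annihilators of additive subgroups of a finite abelian group with a pairing into the characters.
-/

set_option autoImplicit false

namespace Cfsg.Agent.Lib.MinIndexSp

open Module

attribute [local instance] _root_.Classical.propDecidable

universe u

variable {M : Type u} [AddCommGroup M] [Fintype M] (κ : M → AddChar M ℂ)

/-- The elements whose character is trivial on the subgroup. -/
noncomputable def perp (W : AddSubgroup M) : Finset M :=
  Finset.univ.filter fun v => ∀ w ∈ W, κ v w = 1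

theorem mem_perp {W : AddSubgroup M} {v : M} : v ∈ perp κ W ↔ ∀ w ∈ W, κ v w = 1 := by simp [perp]

theorem card_perp (hκ : Function.Injective κ) (W : AddSubgroup M) :
    (perp κ W).card * Nat.card W = Fintype.card M := by
  have hb : Function.Bijective κ :=
    (Fintype.bijective_iff_injective_and_card κ).2 ⟨hκ, AddChar.card_eq.symm⟩
  let π := QuotientAddGroup.mk' W
  let f : AddChar (M ⧸ W) ℂ → M := fun χ => (Equiv.ofBijective κ hb).symm (χ.compAddMonoidHom π)
  have hf : ∀ χ, κ (f χ) = χ.compAddMonoidHom π := fun χ =>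
    Equiv.ofBijective_apply_symm_apply κ hb _
  have hinj : Function.Injective f := by
    intro χ χ' h
    refine DFunLike.ext _ _ fun z => ?_
    obtain ⟨x, rfl⟩ := QuotientAddGroup.mk'_surjective W z
    have h2 := congrArg κ h
    rw [hf, hf] at h2
    exact DFunLike.congr_fun h2 x
  have himg : perp κ W = Finset.univ.image f := by
    ext v
    rw [mem_perp, Finset.mem_image]
    constructor
    · intro hv
      let χ : AddChar (M ⧸ W) ℂ := AddChar.toAddMonoidHomEquiv.symm
        (QuotientAddGroup.lift W (AddChar.toAddMonoidHomEquiv (κ v)) fun w hw => by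
          rw [AddMonoidHom.mem_ker]
          exact congrArg Additive.ofMul (hv w hw))
      refine ⟨χ, Finset.mem_univ _, hb.1 ?_⟩
      rw [hf]
      exact DFunLike.ext _ _ fun x => rfl
    · rintro ⟨χ, -, rfl⟩ w hw
      rw [hf, AddChar.compAddMonoidHom_apply, show π w = 0 from (QuotientAddGroup.eq_zero_iff w).2 hw,
        AddChar.map_zero_eq_one]
  rw [himg, Finset.card_image_of_injective _ hinj, Finset.card_univ, AddChar.card_eq,
    ← Nat.card_eq_fintype_card, ← Nat.card_eq_fintype_card]
  exact (AddSubgroup.card_eq_card_quotient_mul_card_addSubgroup W).symm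

theorem exists_perp (hκ : Function.Injective κ) {W : AddSubgroup M} {w : M} (hw : w ∉ W) :
    ∃ v ∈ perp κ W, κ v w ≠ 1 := by
  by_contra h
  push Not at h
  let W' : AddSubgroup M := W ⊔ AddSubgroup.zmultiples w
  have hsub : perp κ W ⊆ perp κ W' := fun v hv => by
    rw [mem_perp]
    intro x hx
    obtain ⟨y, hy, z, hz, rfl⟩ := AddSubgroup.mem_sup.1 hx
    obtain ⟨k, rfl⟩ := AddSubgroup.mem_zmultiples_iff.1 hz
    rw [AddChar.map_add_eq_mul, (mem_perp κ).1 hv y hy, one_mul, AddChar.map_zsmul_eq_zpow, h v hv,
      one_zpow]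
  have h1 := card_perp κ hκ W
  have h2 := card_perp κ hκ W'
  have hlt : Nat.card W < Nat.card W' := by
    refine Set.ncard_lt_ncard (Set.ssubset_iff_subset_ne.2 ⟨(le_sup_left : W ≤ W'), fun e => ?_⟩)
    exact hw ((Set.ext_iff.1 e w).2 (AddSubgroup.mem_sup_right (AddSubgroup.mem_zmultiples w)))
  have hle := Finset.card_le_card hsub
  have hpos : 0 < (perp κ W).card := by
    rcases Nat.eq_zero_or_pos (perp κ W).card with h0 | h0
    · rw [h0, zero_mul] at h1; exact absurd h1.symm Fintype.card_ne_zero
    · exact h0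
  nlinarith

end Cfsg.Agent.Lib.MinIndexSp
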