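import Cfsg.Agent.Lib.MinIndexSp.Orbits

/-!
Permutation actions of symplectic groups in which no root group fixes a point.
-/

set_option autoImplicit false

namespace Cfsg.Agent.Lib.MinIndexSp

open Matrix Module Cfsg.Agent.Lib.Forms Cfsg.Agent.Lib.Classical
open Cfsg.Agent.Lib.MinDegForms.SpEven (Vc up down eVec fVec decomp down_add down_smul down_up down_eVec up_add up_smul up_zero mkSp mkSp_mulVec)

universe u v

attribute [local instance] _root_.Classical.propDecidable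

variable {F : Type u} [Field F] [Fintype F] {n m : ℕ}

theorem eq_of_stdB {v v' : Vc F n} (h : ∀ w, stdB n F v w = stdB n F v' w) : v = v' :=
  (LinearMap.BilinForm.toDual (stdB n F) (stdB_nondegenerate n (F := F))).injective
    (LinearMap.ext h)

theorem exists_perp_not {x y : Vc F n} (hx : x ≠ 0) (hy : ∀ l : F, y ≠ l • x) :
    ∃ u, stdB n F u x = 0 ∧ stdB n F y u = 1 := by
  by_contra h
  push Not at h
  obtain ⟨x', hx'⟩ := exists_pairing_one (stdB_nondegenerate n (F := F)) hx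
  refine hy (stdB n F y x') (eq_of_stdB fun z => ?_)
  have h0 : stdB n F x (z - stdB n F x z • x') = 0 := by
    rw [map_sub, map_smul, smul_eq_mul, hx', mul_one, sub_self]
  have h1 : stdB n F y (z - stdB n F x z • x') = 0 := by
    by_contra hne
    set t := z - stdB n F x z • x'
    refine h ((stdB n F y t)⁻¹ • t) ?_ ?_
    · rw [map_smul, LinearMap.smul_apply, bneg x t, h0, neg_zero, smul_zero]
    · rw [map_smul, smul_eq_mul, inv_mul_cancel₀ hne]
  rw [map_sub, map_smul, smul_eq_mul, sub_eq_zero] at h1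
  rw [map_smul, LinearMap.smul_apply, smul_eq_mul, h1]
  ring

theorem exists_perp_two (hm : 2 ≤ n) (x y : Vc F n) :
    ∃ z : Vc F n, z ≠ 0 ∧ stdB n F z x = 0 ∧ stdB n F z y = 0 := by
  have hq := Fintype.one_lt_card (α := F)
  have hcard : Fintype.card (F × F) < Fintype.card (Vc F n) := by
    rw [Fintype.card_prod, card_Vc, ← pow_two]
    exact Nat.pow_lt_pow_right hq (by omega)
  obtain ⟨z1, z2, hne, h⟩ := Fintype.exists_ne_map_eq_of_card_lt
    (fun z : Vc F n => (stdB n F z x, stdB n F z y)) hcard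
  simp only [Prod.mk.injEq] at h
  exact ⟨z1 - z2, sub_ne_zero.2 hne, by rw [map_sub, LinearMap.sub_apply, h.1, sub_self],
    by rw [map_sub, LinearMap.sub_apply, h.2, sub_self]⟩

section Act

variable {Ω : Type v} [MulAction (Matrix.symplecticGroup (Fin (m + 1)) F) Ω]

theorem mem_Wst_iff (ω : Ω) (w : Vc F m) :
    w ∈ Wst F m ω ↔ ∀ v ∈ Ann F m ω, psi F (stdB m F v w) = 1 := by
  refine ⟨fun hw v hv => mem_Ann.1 hv w hw, fun h => ?_⟩
  by_contra hw
  obtain ⟨v, hv, hne⟩ := exists_perp chrV chrV_injective hw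
  exact hne (h v hv)

theorem add_mem_Ann {ω : Ω} {u v : Vc F m} (hu : u ∈ Ann F m ω) (hv : v ∈ Ann F m ω) :
    u + v ∈ Ann F m ω := mem_Ann.2 fun w hw => by
  rw [map_add, LinearMap.add_apply, AddChar.map_add_eq_mul, mem_Ann.1 hu w hw, mem_Ann.1 hv w hw,
    one_mul]

theorem sub_mem_Ann {ω : Ω} {u v : Vc F m} (hu : u ∈ Ann F m ω) (hv : v ∈ Ann F m ω) :
    u - v ∈ Ann F m ω := mem_Ann.2 fun w hw => by
  rw [map_sub, LinearMap.sub_apply, sub_eq_add_neg, AddChar.map_add_eq_mul,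
    AddChar.map_neg_eq_inv, mem_Ann.1 hu w hw, mem_Ann.1 hv w hw, inv_one, one_mul]

/-- The commutator of two lifts with central defects. -/
theorem comm_of_central {G : Type*} [Group G] {z₁ z₂ a b : G} (h1 : Commute z₁ a) (h2 : Commute z₁ b)
    (h3 : Commute z₂ a) (h4 : Commute z₂ b) (h5 : Commute z₁ z₂) :
    z₁ * a * (z₂ * b) * (z₁ * a)⁻¹ * (z₂ * b)⁻¹ = a * b * a⁻¹ * b⁻¹ := by
  have e1 : z₁ * a * (z₂ * b) = a * b * (z₁ * z₂) := by
    rw [Commute.mul_mul_mul_comm h3.symm z₁ b, (((h1.mul_right h2).mul_left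
      (h3.mul_right h4)).eq)]
  have e2 : z₂ * b * (z₁ * a) = b * a * (z₁ * z₂) := by
    rw [Commute.mul_mul_mul_comm h2.symm z₂ a, h5.symm.eq, (((h2.mul_right h1).mul_left
      (h4.mul_right h3)).eq)]
  calc z₁ * a * (z₂ * b) * (z₁ * a)⁻¹ * (z₂ * b)⁻¹
      = z₁ * a * (z₂ * b) * (z₂ * b * (z₁ * a))⁻¹ := by group
    _ = a * b * a⁻¹ * b⁻¹ := by rw [e1, e2]; group

theorem central_comm_emb (c : F) (g : Matrix.symplecticGroup (Fin m) F) :
    Commute (rho (0 : Vc F m) c) (emb g) := by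
  rw [commute_iff_eq, emb_rho, mulVec_zero]

theorem central_comm (c d : F) : Commute (rho (0 : Vc F m) c) (rho (0 : Vc F m) d) := by
  rw [commute_iff_eq, rho_central_mul, rho_central_mul, add_comm c d]

theorem exists_normal (ω : Ω) {α : Fˣ} (hα : (α : F) ≠ 1)
    (h : tor (m := m) α • ω ∈ orb F m ω) :
    ∃ ω' ∈ orb F m ω, ∃ c0 : F, rho (0 : Vc F m) c0 • tor (m := m) α • ω' = ω' := by
  obtain ⟨w, c, hwc⟩ := mem_orb.1 h
  set v : Vc F m := ((1 : F) - α)⁻¹ • w with hv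
  refine ⟨rho v 0 • ω, mem_orb.2 ⟨v, 0, rfl⟩, ?_⟩
  have hzero : v + -((α : F) • v + w) = 0 := by
    have h1 : ((1 : F) - α) • v = w := by
      rw [hv, smul_smul, mul_inv_cancel₀ (sub_ne_zero.2 (Ne.symm hα)), one_smul]
    rw [← h1]; module
  have hprod := rho_mul v (-((α : F) • v + w)) 0 (-(0 + c + stdB m F w ((α : F) • v)))
  rw [hzero] at hprod
  refine ⟨0 + -(0 + c + stdB m F w ((α : F) • v)) +
    stdB m F (-((α : F) • v + w)) v, ?_⟩
  rw [← hprod, mul_smul (rho v 0), ← mul_smul (tor α), tor_rho, mul_zero,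
    mul_smul (rho ((α : F) • v) 0), ← hwc, ← mul_smul (rho ((α : F) • v) 0), rho_mul, ← rho_inv,
    inv_smul_smul]

theorem exists_lift (ω : Ω) {α : Fˣ} (hα : (α : F) ≠ 1) {c0 : F}
    (hτ : rho (0 : Vc F m) c0 • tor (m := m) α • ω = ω)
    (hs : ∀ (l : F), ∀ w ∈ Wst F m ω, l • w ∈ Wst F m ω)
    (g : Matrix.symplecticGroup (Fin m) F) (hg : emb g • ω ∈ orb F m ω) :
    ∃ c, rho (0 : Vc F m) c • emb g • ω = ω := by
  obtain ⟨w0, d0, hwd⟩ := mem_orb.1 hg
  obtain ⟨w, c, hk⟩ : ∃ w c, rho (F := F) (m := m) w c • emb g • ω = ω :=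
    ⟨-w0, -d0, by rw [← hwd, ← rho_inv, inv_smul_smul]⟩
  have hconj : rho ((α : F) • w) ((α : F) * α * c) • emb g • ω = ω := by
    have e : rho (0 : Vc F m) c0 * tor (m := m) α * (rho w c * emb g) =
        rho ((α : F) • w) ((α : F) * α * c) * emb g * (rho (0 : Vc F m) c0 * tor (m := m) α) := by
      rw [mul_assoc (rho (0 : Vc F m) c0), ← mul_assoc (tor α), tor_rho, mul_assoc _ (tor α),
        tor_emb, ← mul_assoc, rho_central_mul, add_comm c0, ← rho_mul_central, mul_assoc (rho _ _),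
        ← mul_assoc (rho (0 : Vc F m) c0), (central_comm_emb c0 g).eq]
      simp only [mul_assoc]
    have h := congrArg (· • ω) e
    simp only [mul_smul, hτ, hk] at h
    exact h.symm
  have hy : emb g • ω = rho (-w) (-c) • ω := by
    rw [← rho_inv, eq_inv_smul_iff, hk]
  have hW : (-((α : F) • w) + w) ∈ Wst F m (emb g • ω) := by
    refine mem_Wst.2 ⟨-((α : F) * α * c) + c + stdB m F w (-((α : F) • w)), ?_⟩
    rw [← rho_mul (-((α : F) • w)) w (-((α : F) * α * c)) c, mul_smul, hk, ← rho_inv,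
      inv_smul_eq_iff, hconj]
  rw [hy, Wst_rho] at hW
  have hw : w ∈ Wst F m ω := by
    have := hs (1 - α)⁻¹ _ hW
    rwa [show -((α : F) • w) + w = (1 - (α : F)) • w by module, smul_smul,
      inv_mul_cancel₀ (sub_ne_zero.2 (Ne.symm hα)), one_smul] at this
  obtain ⟨c2, hc2⟩ := mem_Wst.1 hw
  refine ⟨-c2 + c, ?_⟩
  have e : rho (0 : Vc F m) (-c2 + c) = rho (-w) (-c2) * rho w c := by
    rw [rho_mul, neg_add_cancel, map_neg, bself, neg_zero, add_zero]
  rw [e, mul_smul, hk, ← rho_inv, inv_smul_eq_iff, hc2]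

theorem emb_comm_fix (ω : Ω) {g h : Matrix.symplecticGroup (Fin m) F} {c d : F}
    (hg : rho (0 : Vc F m) c • emb g • ω = ω) (hh : rho (0 : Vc F m) d • emb h • ω = ω) :
    emb (g * h * g⁻¹ * h⁻¹) • ω = ω := by
  rw [← mul_smul] at hg hh
  have e := comm_of_central (central_comm_emb c g) (central_comm_emb c h) (central_comm_emb d g)
    (central_comm_emb d h) (central_comm (m := m) c d)
  rw [map_mul, map_mul, map_mul, map_inv, map_inv, ← e]
  have hg' : (rho (0 : Vc F m) c * emb g)⁻¹ • ω = ω := inv_smul_eq_iff.2 hg.symm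
  have hh' : (rho (0 : Vc F m) d * emb h)⁻¹ • ω = ω := inv_smul_eq_iff.2 hh.symm
  rw [mul_smul _ (rho (0 : Vc F m) d * emb h)⁻¹, hh', mul_smul _ (rho (0 : Vc F m) c * emb g)⁻¹, hg',
    mul_smul, hh, hg]

variable [Fintype Ω]

/-- No root group fixes a point. -/
def NoRoot (F : Type u) [Field F] (m : ℕ) (Ω : Type v)
    [MulAction (Matrix.symplecticGroup (Fin (m + 1)) F) Ω] : Prop :=
  ∀ (y : Ω) (a : Vc F (m + 1)), a ≠ 0 → ∃ t : F, spT (m + 1) a t • y ≠ y

theorem Z0_ne_top (hfree : NoRoot F m Ω) (ω : Ω) : Z0 F m ω ≠ ⊤ := fun h => by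
  obtain ⟨t, ht⟩ := hfree ω (eVec F m) eVec_ne_zero
  exact ht (by rw [← rho_central]; exact mem_Z0.1 (h ▸ AddSubgroup.mem_top t))

variable (m F) in
/-- Each vector determines at most one orbit in the type of the point. -/
def Uniq (ω : Ω) : Prop :=
  ∀ y ∈ sameT F m ω, ∀ x : Vc F m, x ≠ 0 → x ∈ Ann F m ω → x ∈ Ann F m y → y ∈ orb F m ω

theorem closed_of_uniq {ω : Ω} (hu : Uniq F m ω) {x : Vc F m} (hx : x ≠ 0)
    (hxA : x ∈ Ann F m ω) {g : Matrix.symplecticGroup (Fin m) F} (hg : g.1 *ᵥ x = x)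
    {v : Vc F m} (hv : v ∈ Ann F m ω) : g.1 *ᵥ v ∈ Ann F m ω := by
  have h : emb g • ω ∈ orb F m ω :=
    hu _ (mem_sameT.2 ⟨Z0_emb g ω, card_Ann_emb g ω⟩) x hx hxA (by
      have h := (mem_Ann_emb g ω x).2 hxA
      rwa [hg] at h)
  obtain ⟨w, c, hwc⟩ := mem_orb.1 h
  rw [← Ann_rho w c ω, hwc]
  exact (mem_Ann_emb g ω v).2 hv

theorem perp_subset_of_uniq {ω : Ω} (hu : Uniq F m ω) {x y : Vc F m} (hx : x ≠ 0)
    (hxA : x ∈ Ann F m ω) (hyA : y ∈ Ann F m ω) (hy : ∀ l : F, y ≠ l • x) {u : Vc F m}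
    (hux : stdB m F u x = 0) : u ∈ Ann F m ω := by
  have key : ∀ u : Vc F m, stdB m F u x = 0 → stdB m F y u ≠ 0 → u ∈ Ann F m ω := by
    intro u hu0 hne
    have hg : (spT m u (stdB m F y u)⁻¹).1 *ᵥ x = x := by
      rw [spT_mulVec, bneg u x, hu0, neg_zero, mul_zero, zero_smul, add_zero]
    have h := sub_mem_Ann (closed_of_uniq hu hx hxA hg hyA) hyA
    rwa [spT_mulVec, inv_mul_cancel₀ hne, one_smul, add_sub_cancel_left] at h
  by_cases h0 : stdB m F y u = 0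
  · obtain ⟨u0, h1, h2⟩ := exists_perp_not hx hy
    have h3 : u + u0 ∈ Ann F m ω := key _ (by rw [map_add, LinearMap.add_apply, hux, h1, add_zero])
      (by rw [map_add, h0, h2, zero_add]; exact one_ne_zero)
    have h4 := sub_mem_Ann h3 (key u0 h1 (by rw [h2]; exact one_ne_zero))
    rwa [add_sub_cancel_right] at h4
  · exact key u hux h0

theorem line_or_top {ω : Ω} (hu : Uniq F m ω) {x : Vc F m} (hx : x ≠ 0)
    (hxA : x ∈ Ann F m ω) :
    (∀ v ∈ Ann F m ω, ∃ l : F, v = l • x) ∨ ∀ v, v ∈ Ann F m ω := by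
  by_contra hc
  push Not at hc
  obtain ⟨⟨y, hyA, hy⟩, z, hz⟩ := hc
  refine hz ?_
  have hy0 : y ≠ 0 := fun h => hy 0 (by rw [h, zero_smul])
  have hx' : ∀ l : F, x ≠ l • y := fun l h => by
    rcases eq_or_ne l 0 with rfl | hl
    · exact hx (by rw [h, zero_smul])
    · exact hy l⁻¹ (by rw [h, smul_smul, inv_mul_cancel₀ hl, one_smul])
  obtain ⟨t, hty, htx⟩ := exists_perp_not hy0 hx'
  have h1 : stdB m F (z - stdB m F x z • t) x = 0 := by
    rw [map_sub, LinearMap.sub_apply, map_smul, LinearMap.smul_apply, smul_eq_mul, bneg x z,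
      bneg x t, htx]
    ring
  have h2 : stdB m F (stdB m F x z • t) y = 0 := by
    rw [map_smul, LinearMap.smul_apply, hty, smul_zero]
  have := add_mem_Ann (perp_subset_of_uniq hu hx hxA hyA hy h1)
    (perp_subset_of_uniq hu hy0 hyA hxA hx' h2)
  rwa [sub_add_cancel] at this

/-- A point whose radical orbit is characterised by a line or by everything cannot occur. -/
theorem rigid (hfree : NoRoot F m Ω) {ω : Ω} (hu : Uniq F m ω) {x : Vc F m} (hx : x ≠ 0)
    {α : Fˣ} (hα : (α : F) ≠ 1) (hαZ : Z0 F m (tor (m := m) α • ω) = Z0 F m ω)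
    (hline : ((∀ l : F, l • x ∈ Ann F m ω) ∧ (∀ v ∈ Ann F m ω, ∃ l : F, v = l • x) ∧
        4 ≤ Fintype.card F) ∨
      ((∀ v, v ∈ Ann F m ω) ∧ (3 ≤ m ∨ (m = 2 ∧ 3 ≤ Fintype.card F) ∨ 4 ≤ Fintype.card F))) :
    False := by
  have hsc : ∀ l : F, l • x ∈ Ann F m ω := by
    rcases hline with h | h
    · exact h.1
    · exact fun l => h.1 _
  have hxA : x ∈ Ann F m ω := by simpa using hsc 1
  have hs : ∀ (l : F), ∀ w ∈ Wst F m ω, l • w ∈ Wst F m ω := by
    intro l w hw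
    rw [mem_Wst_iff] at hw ⊢
    intro v hv
    rw [map_smul, ← LinearMap.smul_apply, ← map_smul]
    refine hw _ ?_
    rcases hline with ⟨h1, h2, -⟩ | ⟨h1, -⟩
    · obtain ⟨k, rfl⟩ := h2 v hv
      rw [smul_smul]; exact h1 _
    · exact h1 _
  have htor : tor (m := m) α • ω ∈ orb F m ω :=
    hu _ (mem_sameT.2 ⟨hαZ, card_Ann_tor α ω⟩) x hx hxA ((mem_Ann_tor α ω x).2 (hsc _))
  obtain ⟨ω', hω', c0, hτ⟩ := exists_normal ω hα htor
  obtain ⟨v0, d0, hvd⟩ := mem_orb.1 hω'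
  have hs' : ∀ (l : F), ∀ w ∈ Wst F m ω', l • w ∈ Wst F m ω' := by
    rw [← hvd, Wst_rho]; exact hs
  have horb : ∀ g : Matrix.symplecticGroup (Fin m) F, (∃ μ : F, μ ≠ 0 ∧ g.1 *ᵥ x = μ • x) →
      ∃ c, rho (0 : Vc F m) c • emb g • ω' = ω' := by
    rintro g ⟨μ, hμ, hgx⟩
    refine exists_lift ω' hα hτ hs' g ?_
    have hxg : x ∈ Ann F m (emb g • ω) := by
      have h := (mem_Ann_emb g ω (μ⁻¹ • x)).2 (hsc _)
      rwa [mulVec_smul, hgx, smul_smul, inv_mul_cancel₀ hμ, one_smul] at h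
    obtain ⟨w, c, hwc⟩ := mem_orb.1
      (hu _ (mem_sameT.2 ⟨Z0_emb g ω, card_Ann_emb g ω⟩) x hx hxA hxg)
    refine mem_orb_of_inter (y := rho (g.1 *ᵥ v0) d0 • rho w c • ω) ?_ ?_
    · rw [← hvd]
      refine mem_orb.2 ⟨g.1 *ᵥ v0 + w + -v0, d0 + c + stdB m F w (g.1 *ᵥ v0) + -d0 +
        stdB m F (-v0) (g.1 *ᵥ v0 + w), ?_⟩
      rw [← rho_mul, ← rho_mul, mul_smul, mul_smul, ← rho_inv, inv_smul_smul]
    · rw [hwc, ← hvd, ← mul_smul (emb g), emb_rho, mul_smul]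
      exact self_mem_orb _
  rcases hline with ⟨-, -, h4⟩ | ⟨htop, hperf⟩
  · obtain ⟨μ, hμ0, hμ1⟩ : ∃ μ : F, μ ≠ 0 ∧ μ * μ ≠ 1 := by
      by_contra hc
      push Not at hc
      have h3 : (Finset.univ : Finset F) ⊆ {0, 1, -1} := fun μ _ => by
        rcases eq_or_ne μ 0 with h | h
        · simp [h]
        · rcases mul_self_eq_one_iff.1 (hc μ h) with h | h <;> simp [h]
      have := (Finset.card_le_card h3).trans Finset.card_le_three
      rw [Finset.card_univ] at this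
      omega
    obtain ⟨d, hd⟩ := sp_transitive m hx (smul_ne_zero hμ0 hx : μ • x ≠ 0)
    obtain ⟨t0, ht0⟩ := hfree ω' (up x) (up_ne_zero hx)
    obtain ⟨c1, hc1⟩ := horb d ⟨μ, hμ0, hd⟩
    have hTx : (spT m x (t0 / (μ * μ - 1))).1 *ᵥ x = (1 : F) • x := by
      rw [spT_mulVec, bself, mul_zero, zero_smul, add_zero, one_smul]
    obtain ⟨c2, hc2⟩ := horb _ ⟨1, one_ne_zero, hTx⟩
    have h := emb_comm_fix ω' hc1 hc2
    rw [spT_conj, hd, spT_smul, show (spT m x (t0 / (μ * μ - 1)))⁻¹ =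
      spT m x (-(t0 / (μ * μ - 1))) from inv_eq_of_mul_eq_one_right (by
        rw [spT_add, add_neg_cancel, spT_zero_right]), spT_add, emb_spT] at h
    rw [show t0 / (μ * μ - 1) * μ * μ + -(t0 / (μ * μ - 1)) = t0 / (μ * μ - 1) * (μ * μ - 1) by ring,
      div_mul_cancel₀ _ (sub_ne_zero.2 hμ1)] at h
    exact ht0 h
  · obtain ⟨t0, ht0⟩ := hfree ω' (up x) (up_ne_zero hx)
    apply ht0
    rw [← emb_spT]
    have hall : ∀ g : Matrix.symplecticGroup (Fin m) F, ∃ c, rho (0 : Vc F m) c • emb g • ω' = ω' := by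
      intro g
      refine exists_lift ω' hα hτ hs' g ?_
      obtain ⟨w, c, hwc⟩ := mem_orb.1
        (hu _ (mem_sameT.2 ⟨Z0_emb g ω, card_Ann_emb g ω⟩) x hx hxA (by
          have h := (mem_Ann_emb g ω ((g⁻¹).1 *ᵥ x)).2 (htop _)
          rwa [mulVec_inv_cancel] at h))
      refine mem_orb_of_inter (y := rho (g.1 *ᵥ v0) d0 • rho w c • ω) ?_ ?_
      · rw [← hvd]
        refine mem_orb.2 ⟨g.1 *ᵥ v0 + w + -v0, d0 + c + stdB m F w (g.1 *ᵥ v0) + -d0 +
          stdB m F (-v0) (g.1 *ᵥ v0 + w), ?_⟩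
        rw [← rho_mul, ← rho_mul, mul_smul, mul_smul, ← rho_inv, inv_smul_smul]
      · rw [hwc, ← hvd, ← mul_smul (emb g), emb_rho, mul_smul]
        exact self_mem_orb _
    have hle : commutator (Matrix.symplecticGroup (Fin m) F) ≤
        (MulAction.stabilizer (Matrix.symplecticGroup (Fin (m + 1)) F) ω').comap emb := by
      rw [commutator_def, Subgroup.commutator_le]
      intro g _ h _
      obtain ⟨c, hc⟩ := hall g
      obtain ⟨d, hd⟩ := hall h
      rw [Subgroup.mem_comap, MulAction.mem_stabilizer_iff, commutatorElement_def]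
      exact emb_comm_fix ω' hc hd
    rw [sp_commutator_eq_top m hperf] at hle
    exact hle (Subgroup.mem_top _)

end Act

end Cfsg.Agent.Lib.MinIndexSp
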