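import Cfsg.Agent.Lib.MinIndexSp.Free

/-!
The degree of an action of a symplectic group in which no root group fixes a point.
-/

set_option autoImplicit false

namespace Cfsg.Agent.Lib.MinIndexSp

open Matrix Module Cfsg.Agent.Lib.Forms Cfsg.Agent.Lib.Classical
open Cfsg.Agent.Lib.MinDegForms.SpEven (Vc up down eVec fVec decomp down_add down_smul down_up down_eVec up_add up_smul up_zero mkSp mkSp_mulVec)

universe u v

attribute [local instance] _root_.Classical.propDecidable

variable {F : Type u} [Field F] [Fintype F] {m : ℕ}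
variable {Ω : Type v} [MulAction (Matrix.symplecticGroup (Fin (m + 1)) F) Ω]

/-- The radical of a perpendicular vector meets the stabiliser. -/
theorem exists_frame_fix (hW : ∀ y : Ω, Wst F m y = ⊤) (y : Ω) {u : Vc F m} (hu : u ≠ 0) (l : F) :
    ∃ z, rho (l • u) 0 • emb (spT m u z) • y = y := by
  obtain ⟨h, he⟩ := sp_transitive (m + 1) (eVec_ne_zero (F := F) (m := m)) (up_ne_zero hu)
  set x := (h⁻¹).1 *ᵥ (l • eVec F m) with hxdef
  have hhx : h.1 *ᵥ x = l • eVec F m := mulVec_inv_cancel h _
  have hx : stdB (m + 1) F x (eVec F m) = 0 := by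
    rw [← sp_iso (m + 1) h, hhx, he, map_smul, LinearMap.smul_apply, B_e_up, smul_zero]
  have hw : h.1 *ᵥ up (down x) = l • eVec F m - x (.inl 0) • up u := by
    have h' := congrArg (h.1 *ᵥ ·) (perp_e x hx)
    simp only [hhx, mulVec_add, mulVec_smul, he] at h'
    rw [h']; abel
  obtain ⟨c, hc⟩ : ∃ c, rho (F := F) (m := m) (down x) c • h⁻¹ • y = h⁻¹ • y :=
    mem_Wst.1 (by rw [hW]; trivial)
  refine ⟨c - 2 * x (.inl 0), ?_⟩
  rw [← mul_smul, ← rho_frame h u (down x) l (x (.inl 0)) c he hw, mul_smul, mul_smul, hc,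
    smul_inv_smul]

theorem exists_sq [CharP F 2] (c : F) : ∃ s, s * s = c := by
  obtain ⟨s, hs⟩ := FiniteField.isSquare_of_char_two (ringChar.eq F 2 ▸ rfl) c
  exact ⟨s, hs.symm⟩

variable [Fintype Ω]

/-- In even characteristic some radical orbit is not an orbit of the centre. -/
theorem exists_proper [CharP F 2] (hm : 1 ≤ m) (hfree : NoRoot F m Ω) (hq : 3 ≤ Fintype.card F) [Nonempty Ω]
    (hW : ∀ y : Ω, Wst F m y = ⊤) : False := by
  have hh : ∀ y : Ω, ∀ w : Vc F m, ∃ c, rho w c • y = y := fun y w =>
    mem_Wst.1 (by rw [hW]; trivial)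
  choose H hH using hh
  have hneg : ∀ (k : ℕ) (x : Vc F k), -x = x := fun k x => funext fun i => CharTwo.neg_eq _
  -- transporting the stabiliser by a lift
  have hshift : ∀ (y : Ω) (u : Vc F m) (κ s : F), u ≠ 0 → s ≠ 0 →
      rho (0 : Vc F m) κ • emb (spT m u s) • y = y →
      ∀ l : F, H y (l • u) + l * l / s ∈ Z0 F m y := by
    intro y u κ s hu hs hfix l
    obtain ⟨w, hw⟩ := exists_pairing_one (stdB_nondegenerate m (F := F)) hu
    set w' := (l / s) • w with hw'
    have hB : stdB m F w' u = l / s := by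
      rw [hw', map_smul, LinearMap.smul_apply, bneg u w, hw, smul_eq_mul, CharTwo.neg_eq, mul_one]
    have hg : (spT m u s).1 *ᵥ w' = w' + l • u := by
      rw [spT_mulVec, hB, mul_div_cancel₀ _ hs]
    have h1 : rho (w' + l • u) (H y w') • y = y := by
      have e : rho (0 : Vc F m) κ * emb (spT m u s) * rho w' (H y w') =
          rho (w' + l • u) (H y w') * (rho (0 : Vc F m) κ * emb (spT m u s)) := by
        rw [mul_assoc, emb_rho, hg, ← mul_assoc, ← mul_assoc, rho_central_mul, rho_mul_central,
          add_comm κ]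
      have h := congrArg (· • y) e
      simp only [mul_smul, hH, hfix] at h
      exact h.symm
    have h2 : rho (w' + l • u) (H y w' + H y (l • u) + stdB m F (l • u) w') • y = y := by
      rw [← rho_mul, mul_smul, hH, hH]
    have hB2 : stdB m F (l • u) w' = l * l / s := by
      rw [hw', map_smul, map_smul, LinearMap.smul_apply, hw, smul_eq_mul, smul_eq_mul, mul_one]
      ring
    rw [mem_Z0]
    refine smul_left_cancel (rho (w' + l • u) (H y w')) ?_
    rw [← mul_smul, rho_mul_central, h1, ← add_assoc, ← hB2]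
    exact h2
  have hsplit : ∀ (y : Ω) (u : Vc F m) (l z : F), rho (l • u) 0 • emb (spT m u z) • y = y →
      rho (0 : Vc F m) (-H y (l • u)) • emb (spT m u z) • y = y := by
    intro y u l z hz
    refine smul_left_cancel (rho (l • u) (H y (l • u))) ?_
    rw [← mul_smul, rho_mul_central, add_neg_cancel, hz, hH]
  have huniq : ∀ (y : Ω) (u : Vc F m) (κ s κ' s' : F), u ≠ 0 → s ≠ 0 → s' ≠ 0 →
      rho (0 : Vc F m) κ • emb (spT m u s) • y = y →
      rho (0 : Vc F m) κ' • emb (spT m u s') • y = y → s = s' := by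
    intro y u κ s κ' s' hu hs hs' h h'
    by_contra hne
    refine Z0_ne_top hfree y (eq_top_iff.2 fun c _ => ?_)
    have hd : (1 : F) / s - 1 / s' ≠ 0 := sub_ne_zero.2 fun e => hne (by
      rw [one_div, one_div] at e; exact inv_injective e)
    obtain ⟨l, hl⟩ := exists_sq (c / (1 / s - 1 / s'))
    have h3 := (Z0 F m y).sub_mem (hshift y u κ s hu hs h l) (hshift y u κ' s' hu hs' h' l)
    rwa [show H y (l • u) + l * l / s - (H y (l • u) + l * l / s') = l * l * (1 / s - 1 / s') by
      ring, hl, div_mul_cancel₀ _ hd] at h3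
  have hA : ∀ (y : Ω) (u : Vc F m) (s : F), u ≠ 0 → s ≠ 0 → emb (spT m u s) • y ≠ y := by
    intro y u s hu hs hfix
    refine Z0_ne_top hfree y (eq_top_iff.2 fun c _ => ?_)
    have hfix0 : rho (0 : Vc F m) (0 : F) • emb (spT m u s) • y = y := by
      rw [rho_zero, one_smul, hfix]
    obtain ⟨l, hl⟩ := exists_sq (c * s)
    obtain ⟨z, hz⟩ := exists_frame_fix hW y hu l
    have h := hsplit y u l z hz
    have hmem : H y (l • u) ∈ Z0 F m y := by
      have h0 : rho (0 : Vc F m) (-H y (l • u)) • y = y := by
        rcases eq_or_ne z 0 with rfl | hz0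
        · rwa [spT_zero_right, map_one, one_smul] at h
        · rwa [huniq y u _ z _ s hu hz0 hs h hfix0, hfix] at h
      simpa using (Z0 F m y).neg_mem (mem_Z0.2 h0)
    have h3 := (Z0 F m y).sub_mem (hshift y u 0 s hu hs hfix0 l) hmem
    rwa [add_sub_cancel_left, hl, mul_div_assoc, div_self hs, mul_one] at h3
  obtain ⟨u₀, hu₀⟩ : ∃ u : Vc F m, u ≠ 0 := ⟨Pi.single (.inl ⟨0, hm⟩) 1, by simp⟩
  have hZ : ∀ y : Ω, Z0 F m y = ⊥ := by
    intro y
    rw [AddSubgroup.eq_bot_iff_forall]
    intro c hc
    by_contra hc0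
    obtain ⟨g, hg⟩ := sp_transitive (m + 1) (eVec_ne_zero (F := F) (m := m)) (up_ne_zero hu₀)
    refine hA (g • y) u₀ c hu₀ hc0 ?_
    rw [emb_spT, ← hg, ← spT_conj, ← rho_central, mul_smul, mul_smul, inv_smul_smul, mem_Z0.1 hc]
  obtain ⟨y⟩ := (inferInstance : Nonempty Ω)
  have hval : ∀ c, rho (0 : Vc F m) c • y = y → c = 0 := fun c hc => by
    have h : c ∈ Z0 F m y := mem_Z0.2 hc
    rwa [hZ, AddSubgroup.mem_bot] at h
  obtain ⟨u, hu, hu1⟩ : ∃ u : Vc F m, u ≠ 0 ∧ H y u ≠ 0 := by
    by_contra hc
    push Not at hc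
    obtain ⟨w, hw⟩ := exists_pairing_one (stdB_nondegenerate m (F := F)) hu₀
    have hall : ∀ x, H y x = 0 := fun x => by
      rcases eq_or_ne x 0 with rfl | hx
      · exact hval _ (hH y 0)
      · exact hc x hx
    have h1 : rho (w + u₀) (H y w + H y u₀ + stdB m F u₀ w) • y = y := by
      rw [← rho_mul, mul_smul, hH, hH]
    have h2 := hH y (w + u₀)
    rw [hall] at h2
    rw [hall, hall, hw, add_zero, zero_add] at h1
    refine one_ne_zero (α := F) (hval 1 (smul_left_cancel (rho (w + u₀) 0) ?_))
    rw [← mul_smul, rho_mul_central, zero_add, h1, h2]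
  obtain ⟨z, hz⟩ := exists_frame_fix hW y hu (1 : F)
  have h := hsplit y u 1 z hz
  rw [one_smul] at h
  have hz0 : z ≠ 0 := by
    rintro rfl
    rw [spT_zero_right, map_one, one_smul] at h
    exact hu1 (neg_eq_zero.1 (hval _ h))
  have hform : ∀ l : F, H y (l • u) = l * l / z := fun l => by
    have h2 := hshift y u _ z hu hz0 h l
    rw [hZ, AddSubgroup.mem_bot, add_eq_zero_iff_eq_neg, CharTwo.neg_eq] at h2
    exact h2
  obtain ⟨l, hl0, hl1⟩ : ∃ l : F, l ≠ 0 ∧ l ≠ 1 := by
    by_contra hc
    push Not at hc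
    have h3 : (Finset.univ : Finset F) ⊆ {0, 1} := fun l _ => by
      rcases eq_or_ne l 0 with h | h
      · simp [h]
      · simp [hc l h]
    have := (Finset.card_le_card h3).trans Finset.card_le_two
    rw [Finset.card_univ] at this
    omega
  obtain ⟨z', hz'⟩ := exists_frame_fix hW y hu l
  have h' := hsplit y u l z' hz'
  rcases eq_or_ne z' 0 with rfl | hz'0
  · rw [spT_zero_right, map_one, one_smul] at h'
    have := neg_eq_zero.1 (hval _ h')
    rw [hform, div_eq_zero_iff] at this
    rcases this with h0 | h0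
    · exact hl0 (mul_self_eq_zero.1 h0)
    · exact hz0 h0
  · rw [huniq y u _ z' _ z hu hz'0 hz0 h' h] at h'
    have e1 : rho (0 : Vc F m) (-H y (l • u)) • emb (spT m u z) • y =
        rho (0 : Vc F m) (-H y u) • emb (spT m u z) • y := h'.trans h.symm
    have h4 : rho (0 : Vc F m) (-H y u + H y (l • u)) • (emb (spT m u z) • y) =
        emb (spT m u z) • y := by
      refine smul_left_cancel (rho (0 : Vc F m) (-H y (l • u))) ?_
      rw [← mul_smul, rho_central_mul, show -H y (l • u) + (-H y u + H y (l • u)) = -H y u by abel,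
        e1]
    have h5 : -H y u + H y (l • u) ∈ Z0 F m y := by
      rw [← Z0_emb (spT m u z) y, mem_Z0]; exact h4
    rw [hZ, AddSubgroup.mem_bot, neg_add_eq_zero, hform] at h5
    have h6 := hform 1
    rw [one_smul, one_mul] at h6
    rw [h6, div_left_inj' hz0] at h5
    rcases mul_self_eq_one_iff.1 h5.symm with h7 | h7
    · exact hl1 h7
    · rw [CharTwo.neg_eq] at h7; exact hl1 h7

theorem Wst_ne_top_of_odd (h2 : (2 : F) ≠ 0) (hfree : NoRoot F m Ω) (ω : Ω) {w w' : Vc F m}
    (hw : ∀ l : F, l • w ∈ Wst F m ω) (hw' : w' ∈ Wst F m ω) (hB : stdB m F w w' ≠ 0) : False := by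
  refine Z0_ne_top hfree ω (eq_top_iff.2 fun c _ => ?_)
  obtain ⟨a, ha⟩ := mem_Wst.1 (hw (c / (2 * stdB m F w w')))
  obtain ⟨b, hb⟩ := mem_Wst.1 hw'
  set x := (c / (2 * stdB m F w w')) • w
  have h1 : rho (x + w') (a + b + stdB m F w' x) • ω = ω := by rw [← rho_mul, mul_smul, hb, ha]
  have h3 : rho (w' + x) (b + a + stdB m F x w') • ω = ω := by rw [← rho_mul, mul_smul, ha, hb]
  have hc : stdB m F x w' - stdB m F w' x = c := by
    rw [bneg x w', sub_neg_eq_add, map_smul, LinearMap.smul_apply, smul_eq_mul]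
    field_simp
    ring
  rw [mem_Z0]
  refine smul_left_cancel (rho (x + w') (a + b + stdB m F w' x)) ?_
  rw [← mul_smul, rho_mul_central, h1]
  convert h3 using 3
  · abel
  · rw [← hc]; ring

/-- The arithmetic used for the bounds. -/
theorem arith_two {q M n : ℕ} (hq : 3 ≤ q) (h : 2 * q * M ≤ n) (hM : q * q ≤ M + 1) :
    q * q * (M + 1) - 1 ≤ (q - 1) * n := by
  obtain ⟨r, rfl⟩ : ∃ r, q = r + 1 := ⟨q - 1, by omega⟩
  rw [Nat.add_sub_cancel, Nat.sub_le_iff_le_add]
  have h' := Nat.mul_le_mul_left r h
  nlinarith [Nat.mul_le_mul (by omega : 2 ≤ r) hM]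

theorem arith_odd {q M n : ℕ} (hq : 3 ≤ q) (h : (q + 3) * M ≤ n) (hM : q * q ≤ M + 1) :
    q * q * (M + 1) - 1 ≤ (q - 1) * n := by
  obtain ⟨r, rfl⟩ : ∃ r, q = r + 1 := ⟨q - 1, by omega⟩
  rw [Nat.add_sub_cancel, Nat.sub_le_iff_le_add]
  have h' := Nat.mul_le_mul_left r h
  nlinarith [Nat.mul_le_mul (by omega : 2 ≤ r) hM]

theorem arith_even {q M n : ℕ} (hq : 4 ≤ q) (h : (q + 2) * M ≤ n) (hM : q * q ≤ M + 1) :
    q * q * (M + 1) - 1 ≤ (q - 1) * n := by
  obtain ⟨r, rfl⟩ : ∃ r, q = r + 1 := ⟨q - 1, by omega⟩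
  rw [Nat.add_sub_cancel, Nat.sub_le_iff_le_add]
  have h' := Nat.mul_le_mul_left r h
  nlinarith [Nat.mul_le_mul (by omega : 3 ≤ r) hM]

theorem arith_small {q M n a : ℕ} (hq : 4 ≤ q) (ha : 2 * a ≤ q) (ha0 : 0 < a)
    (h : M * (q * a) ≤ n * (a - 1)) (hM : q * q ≤ M + 1) :
    q * q * (M + 1) - 1 ≤ (q - 1) * n := by
  obtain ⟨r, rfl⟩ : ∃ r, q = r + 2 := ⟨q - 2, by omega⟩
  obtain ⟨b, rfl⟩ : ∃ b, a = b + 1 := ⟨a - 1, by omega⟩
  rw [Nat.add_sub_cancel] at h
  rw [show r + 2 - 1 = r + 1 by omega, Nat.sub_le_iff_le_add]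
  have hb : 2 * b ≤ r := by omega
  have h1 : M * ((r + 2) * (r + 2)) * (b + 1) ≤ n * r * (b + 1) := by
    calc M * ((r + 2) * (r + 2)) * (b + 1) = M * ((r + 2) * (b + 1)) * (r + 2) := by ring
      _ ≤ n * b * (r + 2) := Nat.mul_le_mul_right _ h
      _ ≤ n * r * (b + 1) := by nlinarith
  have h2 : M * ((r + 2) * (r + 2)) ≤ n * r := Nat.le_of_mul_le_mul_right h1 (by omega)
  nlinarith [Nat.mul_le_mul (by omega : 2 ≤ r) hM]

/-- The bound for a point in even characteristic whose stabiliser meets the centre properly. -/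
theorem even_case [CharP F 2] (hq : 4 ≤ Fintype.card F) (hfree : NoRoot F m Ω) (ω : Ω)
    (hbot : Z0 F m ω ≠ ⊥) {M : ℕ} (hM : Fintype.card F * Fintype.card F ≤ M + 1)
    (hY : 1 * (dual0 (Z0 F m ω)).card * M ≤ (sameT F m ω).card) :
    Fintype.card F * Fintype.card F * (M + 1) - 1 ≤ (Fintype.card F - 1) * Fintype.card Ω := by
  set q := Fintype.card F with hqdef
  set C := (zClasses (F := F) (m := m) ω).card with hCdef
  set N := (dual0 (Z0 F m ω)).card with hNdef
  have hN1 : 1 ≤ N := by
    have h := card_dual0 (Z0 F m ω)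
    rcases Nat.eq_zero_or_pos N with h0 | h0
    · rw [hNdef] at h0; rw [h0, zero_mul] at h; omega
    · exact h0
  have hinj : ∀ x y : F, x * x = y * y → x = y := fun x y h => by
    rcases mul_self_eq_mul_self_iff.1 h with h | h
    · exact h
    · rwa [CharTwo.neg_eq] at h
  have hcov := classes_cover ω (Z0_ne_top hfree ω) (b := 1) (fun c => Finset.card_le_one.2
    fun e he e' he' => Units.ext (hinj _ _
      ((Finset.mem_filter.1 he).2.trans (Finset.mem_filter.1 he').2.symm)))
  have hdef : ∀ e : Fˣ, Z0 F m (tor (m := m) e • ω) ∈ zClasses (F := F) (m := m) ω :=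
    fun e => Finset.mem_image_of_mem _ (Finset.mem_univ e)
  have hstab : ∀ (e : Fˣ) (y y' : Ω), Z0 F m y = Z0 F m y' →
      Z0 F m (tor (m := m) e • y) = Z0 F m (tor (m := m) e • y') := by
    intro e y y' h
    ext c
    obtain ⟨d, rfl⟩ : ∃ d, (e : F) * e * d = c := ⟨((e : F) * e)⁻¹ * c, by field_simp⟩
    rw [mem_Z0_tor, mem_Z0_tor, h]
  have hC3 : 3 ≤ C := by
    by_contra hc
    -- every class map is an involution, hence trivial
    have hfix : ∀ e : Fˣ, Z0 F m (tor (m := m) e • ω) = Z0 F m ω := by
      have hsq : ∀ e : Fˣ, Z0 F m (tor (m := m) e • tor (m := m) e • ω) = Z0 F m ω := by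
        intro e
        by_contra hne
        have hne1 : Z0 F m (tor (m := m) e • ω) ≠ Z0 F m ω := fun h =>
          hne ((hstab e _ _ h).trans h)
        have hne2 : Z0 F m (tor (m := m) e • tor (m := m) e • ω) ≠ Z0 F m (tor (m := m) e • ω) := by
          intro h
          apply hne1
          ext c
          rw [← mem_Z0_tor e (tor (m := m) e • ω) c, h, mem_Z0_tor]
        have h3 : ({Z0 F m ω, Z0 F m (tor (m := m) e • ω),
            Z0 F m (tor (m := m) e • tor (m := m) e • ω)} : Finset (AddSubgroup F)) ⊆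
            zClasses (F := F) (m := m) ω := by
          intro Z hZ
          simp only [Finset.mem_insert, Finset.mem_singleton] at hZ
          rcases hZ with rfl | rfl | rfl
          · have h3 : tor (F := F) (m := m) 1 = 1 := sp_ext fun v => by
              rw [tor_mulVec, OneMemClass.coe_one, one_mulVec]
              change ((1 : F) * v (.inl 0)) • _ + ((1 : F)⁻¹ * v (.inr 0)) • _ + up (down v) = v
              rw [inv_one, one_mul, one_mul, ← decomp]
            have := hdef 1
            rwa [h3, one_smul] at this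
          · exact hdef e
          · have he2 : tor (m := m) e * tor (m := m) e = tor (e * e) := sp_ext fun v => by
              obtain ⟨a1, a2, a3⟩ := torusLin_coords (e : F) v
              rw [Submonoid.coe_mul, ← mulVec_mulVec, tor_mulVec, tor_mulVec, tor_mulVec]
              change ((e : F) * torusLin (e : F) v (.inl 0)) • _ +
                ((e : F)⁻¹ * torusLin (e : F) v (.inr 0)) • _ + up (down (torusLin (e : F) v)) = _
              rw [a1, a2, a3, ← mul_assoc, ← mul_assoc, ← mul_inv, ← Units.val_mul]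
              rfl
            rw [← mul_smul, he2]
            exact hdef _
        have h5 := Finset.card_le_card h3
        rw [Finset.card_insert_of_notMem (by simp [Ne.symm hne1, Ne.symm hne]),
          Finset.card_pair hne2.symm] at h5
        omega
      intro e
      obtain ⟨r, hr⟩ := exists_sq (e : F)
      have hr0 : r ≠ 0 := fun h => e.ne_zero (by rw [← hr, h, mul_zero])
      have he2 : tor (m := m) (Units.mk0 r hr0) * tor (m := m) (Units.mk0 r hr0) = tor e :=
        sp_ext fun v => by
          obtain ⟨a1, a2, a3⟩ := torusLin_coords r v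
          rw [Submonoid.coe_mul, ← mulVec_mulVec, tor_mulVec, tor_mulVec, tor_mulVec]
          change (r * torusLin r v (.inl 0)) • _ +
            (r⁻¹ * torusLin r v (.inr 0)) • _ + up (down (torusLin r v)) = _
          rw [a1, a2, a3, ← mul_assoc, ← mul_assoc, ← mul_inv, hr]
          rfl
      rw [← he2, mul_smul]
      exact hsq _
    refine Z0_ne_top hfree ω (eq_top_iff.2 fun d _ => ?_)
    obtain ⟨c, hcZ, hc0⟩ : ∃ c ∈ Z0 F m ω, c ≠ 0 := by
      by_contra h
      push Not at h
      exact hbot ((AddSubgroup.eq_bot_iff_forall _).2 h)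
    obtain ⟨r, hr⟩ := exists_sq (d / c)
    rcases eq_or_ne r 0 with rfl | hr0
    · rw [zero_mul, eq_comm, div_eq_zero_iff] at hr
      rcases hr with rfl | h
      · exact zero_mem _
      · exact absurd h hc0
    · have h := (mem_Z0_tor (Units.mk0 r hr0) ω c).2 hcZ
      rwa [hfix, Units.val_mk0, hr, div_mul_cancel₀ _ hc0] at h
  refine arith_even hq (le_trans ?_ (classes_mul (F := F) (m := m) ω)) hM
  calc (q + 2) * M ≤ C * N * M := Nat.mul_le_mul_right _ (by
        obtain ⟨N', hN'⟩ : ∃ N', N = N' + 1 := ⟨N - 1, by omega⟩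
        rw [hN']
        rw [← hCdef, ← hNdef, ← hqdef, hN', Nat.add_sub_cancel] at hcov
        rw [Nat.mul_succ]
        omega)
    _ ≤ C * (sameT F m ω).card := by
        rw [mul_assoc]; exact Nat.mul_le_mul_left _ (by simpa using hY)

theorem exists_fst_ne (hm : 1 ≤ m) : ∃ x : Vc F m, x ≠ 0 :=
  ⟨Pi.single (.inl ⟨0, hm⟩) 1, by simp⟩

/-- A free action is at least as large as the action on the lines. -/
theorem bound_of_free (hq : 3 ≤ Fintype.card F) (hm : 1 ≤ m)
    (hex : ¬ (m = 1 ∧ Fintype.card F = 3)) [Nonempty Ω] (hfree : NoRoot F m Ω) :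
    Fintype.card F ^ (2 * (m + 1)) - 1 ≤ (Fintype.card F - 1) * Fintype.card Ω := by
  set q := Fintype.card F with hqdef
  have hperf : 3 ≤ m ∨ (m = 2 ∧ 3 ≤ q) ∨ 4 ≤ q := by
    rcases (by omega : 3 ≤ m ∨ m = 2 ∨ m = 1) with h | h | h
    · exact Or.inl h
    · exact Or.inr (Or.inl ⟨h, hq⟩)
    · exact Or.inr (Or.inr (by omega))
  set M := q ^ (2 * m) - 1 with hMdef
  have hM1 : q ^ (2 * m) = M + 1 := by
    have : 0 < q ^ (2 * m) := Nat.pow_pos (by omega)
    omega
  have hM : q * q ≤ M + 1 := by
    rw [← hM1, ← pow_two]; exact Nat.pow_le_pow_right (by omega) (by omega)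
  have hgoal : q ^ (2 * (m + 1)) = q * q * (M + 1) := by
    rw [← hM1, Nat.mul_succ, pow_add, pow_two]; ring
  rw [hgoal]
  -- a point with a proper projection
  obtain ⟨ω, hω⟩ : ∃ ω : Ω, Wst F m ω ≠ ⊤ := by
    by_contra hc
    push Not at hc
    by_cases h2 : (2 : F) = 0
    · haveI : CharP F 2 := CharTwo.of_one_ne_zero_of_two_eq_zero one_ne_zero h2
      exact exists_proper hm hfree hq hc
    · obtain ⟨x, hx⟩ := exists_fst_ne (F := F) hm
      obtain ⟨y, hy⟩ := exists_pairing_one (stdB_nondegenerate m (F := F)) hx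
      obtain ⟨ω⟩ := (inferInstance : Nonempty Ω)
      exact Wst_ne_top_of_odd h2 hfree ω (w := x) (w' := y) (fun l => by rw [hc]; trivial)
        (by rw [hc]; trivial) (by rw [hy]; exact one_ne_zero)
  obtain ⟨x, hx0, hxA⟩ : ∃ x : Vc F m, x ≠ 0 ∧ x ∈ Ann F m ω := by
    obtain ⟨w, hw⟩ : ∃ w, w ∉ Wst F m ω := by
      by_contra hc
      push Not at hc
      exact hω (eq_top_iff.2 fun w _ => hc w)
    obtain ⟨v, hv, hne⟩ := exists_perp chrV chrV_injective hw
    exact ⟨v, fun h => hne (by rw [h, chrV_apply]; simp), hv⟩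
  set a := (Ann F m ω).card with hadef
  set z := Nat.card (Z0 F m ω) with hzdef
  set N := (dual0 (Z0 F m ω)).card with hNdef
  set C := (zClasses (F := F) (m := m) ω).card with hCdef
  set Y := (sameT F m ω).card with hYdef
  have hNz : N * z = q := card_dual0 _
  have hz0 : 0 < z := Nat.card_pos
  have hC1 : 1 ≤ C := Finset.card_pos.2 ⟨_, Finset.mem_image_of_mem _ (Finset.mem_univ 1)⟩
  have hCY : C * Y ≤ Fintype.card Ω := classes_mul ω
  have hfam : ∀ (T : Finset Ω), T ⊆ sameT F m ω → (∀ r ∈ T, ∃ x' : Vc F m, x' = x ∧ x ∈ Ann F m r) →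
      (∀ r ∈ T, ∀ r' ∈ T, r ≠ r' → r' ∉ orb F m r) → M * (T.card * (q * a)) ≤ Y * (a - 1) * z :=
    fun T h1 h2 h3 => card_family ω hx0 T h1 (fun r hr => by obtain ⟨-, -, h⟩ := h2 r hr; exact h) h3
  have hcancel : ∀ j, M * (j * (q * a)) ≤ Y * (a - 1) * z → j * N * M ≤ Y := by
    intro j hj
    refine Nat.le_of_mul_le_mul_right ?_ hz0
    refine Nat.le_of_mul_le_mul_right ?_ (Finset.card_pos.2 ⟨x, hxA⟩ : 0 < a)
    calc j * N * M * z * a = M * (j * (N * z * a)) := by ring
      _ ≤ Y * (a - 1) * z := by rw [hNz]; exact hj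
      _ = Y * z * (a - 1) := by ring
      _ ≤ Y * z * a := Nat.mul_le_mul_left _ (by omega)
  have hone : M * (1 * (q * a)) ≤ Y * (a - 1) * z := by
    have := hfam {ω} (by simp [mem_sameT]) (fun r hr => by
      rw [Finset.mem_singleton] at hr; exact ⟨x, rfl, hr ▸ hxA⟩)
      (fun r hr r' hr' h => absurd ((Finset.mem_singleton.1 hr).trans (Finset.mem_singleton.1 hr').symm) h)
    rwa [Finset.card_singleton] at this
  by_cases hu : Uniq F m ω
  swap
  · unfold Uniq at hu
    push Not at hu
    obtain ⟨y, hy, x', hx'0, hx'A, hx'y, hyo⟩ := hu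
    have htwo : 2 * N * M ≤ Y := by
      refine hcancel 2 ?_
      have hne : ω ≠ y := fun h => hyo (h ▸ self_mem_orb ω)
      have := card_family ω hx'0 {ω, y}
        (by intro r hr; simp only [Finset.mem_insert, Finset.mem_singleton] at hr
            rcases hr with rfl | rfl
            · simp [mem_sameT]
            · exact hy)
        (by intro r hr; simp only [Finset.mem_insert, Finset.mem_singleton] at hr
            rcases hr with rfl | rfl <;> assumption)
        (by intro r hr r' hr' hne'
            simp only [Finset.mem_insert, Finset.mem_singleton] at hr hr'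
            rcases hr with rfl | rfl <;> rcases hr' with rfl | rfl
            · exact absurd rfl hne'
            · exact hyo
            · exact fun h => hyo (mem_orb_of_inter (self_mem_orb r') h)
            · exact absurd rfl hne')
      rwa [Finset.card_pair hne] at this
    by_cases hbot : Z0 F m ω = ⊥
    · have hz1 : z = 1 := by rw [hzdef, hbot, AddSubgroup.card_bot]
      rw [hz1, mul_one] at hNz
      rw [hNz] at htwo
      exact arith_two hq (htwo.trans (le_trans (Nat.le_mul_of_pos_left _ hC1) hCY)) hM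
    · have hN1 : 1 ≤ N := by
        rcases Nat.eq_zero_or_pos N with h | h
        · rw [h, zero_mul] at hNz; omega
        · exact h
      have hcov := classes_cover ω (Z0_ne_top hfree ω) (b := 2) (fun c => by
        by_cases he : (Finset.univ.filter fun e : Fˣ => (e : F) * e = c) = ∅
        · rw [he]; simp
        · obtain ⟨e0, he0⟩ := Finset.nonempty_iff_ne_empty.2 he
          refine le_trans (Finset.card_le_card fun e he' => ?_) (Finset.card_le_two (a := e0) (b := -e0))
          have h1 : (e0 : F) * e0 = c := (Finset.mem_filter.1 he0).2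
          have h2 : (e : F) * e = c := (Finset.mem_filter.1 he').2
          rcases mul_self_eq_mul_self_iff.1 (h2.trans h1.symm) with h | h
          · simp [Units.ext_iff, h]
          · simp [Units.ext_iff, h])
      have hC2 : 2 ≤ C := by
        by_contra hc
        have hsing := Finset.card_eq_one.1 (show C = 1 by omega)
        obtain ⟨Z, hZ⟩ := hsing
        have hsame : ∀ e : Fˣ, Z0 F m (tor (m := m) e • ω) = Z0 F m ω := fun e => by
          have h1 : Z0 F m (tor (m := m) e • ω) ∈ zClasses (F := F) (m := m) ω :=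
            Finset.mem_image_of_mem _ (Finset.mem_univ e)
          have h2 : Z0 F m (tor (m := m) (1 : Fˣ) • ω) ∈ zClasses (F := F) (m := m) ω :=
            Finset.mem_image_of_mem _ (Finset.mem_univ 1)
          rw [hZ, Finset.mem_singleton] at h1 h2
          have h3 : tor (F := F) (m := m) 1 = 1 := sp_ext fun v => by
            rw [tor_mulVec, OneMemClass.coe_one, one_mulVec]
            change ((1 : F) * v (.inl 0)) • _ + ((1 : F)⁻¹ * v (.inr 0)) • _ + up (down v) = v
            rw [inv_one, one_mul, one_mul, ← decomp]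
          rw [h3, one_smul] at h2
          rw [h1, h2]
        obtain ⟨c, hcZ, hc0⟩ : ∃ c ∈ Z0 F m ω, c ≠ 0 := by
          by_contra h
          push Not at h
          exact hbot ((AddSubgroup.eq_bot_iff_forall _).2 h)
        have hsq : ∀ e : F, e * e * c ∈ Z0 F m ω := fun e => by
          rcases eq_or_ne e 0 with rfl | he
          · simp
          · have h := (mem_Z0_tor (Units.mk0 e he) ω c).2 hcZ
            rwa [hsame] at h
        refine Z0_ne_top hfree ω (eq_top_iff.2 fun d _ => ?_)
        by_cases h2 : (2 : F) = 0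
        · haveI : CharP F 2 := CharTwo.of_one_ne_zero_of_two_eq_zero one_ne_zero h2
          obtain ⟨e, he⟩ := exists_sq (d / c)
          have := hsq e
          rwa [he, div_mul_cancel₀ _ hc0] at this
        · have := (Z0 F m ω).sub_mem (hsq ((d / c + 1) / 2)) (hsq ((d / c - 1) / 2))
          rwa [show (d / c + 1) / 2 * ((d / c + 1) / 2) * c -
            (d / c - 1) / 2 * ((d / c - 1) / 2) * c = d by
              field_simp; ring] at this
      refine arith_odd hq (le_trans ?_ hCY) hM
      calc (q + 3) * M ≤ C * (2 * N) * M := Nat.mul_le_mul_right _ (by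
            have e : C * (2 * N) = 2 * (C * (N - 1)) + 2 * C := by
              obtain ⟨N', hN'⟩ : ∃ N', N = N' + 1 := ⟨N - 1, by omega⟩
              rw [hN', Nat.add_sub_cancel]; ring
            rw [← hCdef, ← hNdef, ← hqdef] at hcov
            omega)
        _ = C * (2 * N * M) := by ring
        _ ≤ C * Y := Nat.mul_le_mul_left _ htwo
  -- now every vector determines at most one orbit
  rcases line_or_top hu hx0 hxA with hline | htop
  swap
  · by_cases h2 : (2 : F) = 0
    · haveI : CharP F 2 := CharTwo.of_one_ne_zero_of_two_eq_zero one_ne_zero h2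
      have hq4 : 4 ≤ q := by
        rcases Nat.lt_or_ge q 4 with h | h
        · exfalso
          have he : Even q := by
            rw [Nat.even_iff, hqdef, ← FiniteField.even_card_iff_char_two]
            exact ringChar.eq F 2
          obtain ⟨k, hk⟩ := he
          omega
        · exact h
      by_cases hbot : Z0 F m ω = ⊥
      · obtain ⟨α, hα0, hα1⟩ : ∃ l : F, l ≠ 0 ∧ l ≠ 1 := by
          by_contra hc
          push Not at hc
          have h3 : (Finset.univ : Finset F) ⊆ {0, 1} := fun l _ => by
            rcases eq_or_ne l 0 with h | h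
            · simp [h]
            · simp [hc l h]
          have := (Finset.card_le_card h3).trans Finset.card_le_two
          rw [Finset.card_univ] at this
          omega
        refine absurd (rigid hfree hu hx0 (α := Units.mk0 α hα0) hα1 ?_ (Or.inr ⟨htop, hperf⟩)) id
        ext c
        obtain ⟨c', rfl⟩ : ∃ c', α * α * c' = c := ⟨(α * α)⁻¹ * c, by field_simp⟩
        rw [show α * α * c' = (Units.mk0 α hα0 : F) * (Units.mk0 α hα0 : F) * c' from rfl,
          mem_Z0_tor, hbot, AddSubgroup.mem_bot, AddSubgroup.mem_bot, Units.val_mk0, mul_eq_zero]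
        simp [hα0]
      · exact even_case hq4 hfree ω hbot hM (hcancel 1 hone)
    · refine absurd (rigid hfree hu hx0 (α := (-1 : Fˣ)) (fun h => h2 ?_) ?_ (Or.inr ⟨htop, hperf⟩)) id
      · rw [Units.val_neg, Units.val_one] at h
        linear_combination -h
      · ext c
        conv_lhs => rw [show c = ((-1 : Fˣ) : F) * ((-1 : Fˣ) : F) * c by simp]
        rw [mem_Z0_tor]
  · by_cases h2 : (2 : F) = 0
    · haveI : CharP F 2 := CharTwo.of_one_ne_zero_of_two_eq_zero one_ne_zero h2
      have hq4 : 4 ≤ q := by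
        rcases Nat.lt_or_ge q 4 with h | h
        · exfalso
          have he : Even q := by
            rw [Nat.even_iff, hqdef, ← FiniteField.even_card_iff_char_two]
            exact ringChar.eq F 2
          obtain ⟨k, hk⟩ := he
          omega
        · exact h
      by_cases hbot : Z0 F m ω = ⊥
      · by_cases hfull : ∀ l : F, l • x ∈ Ann F m ω
        · obtain ⟨α, hα0, hα1⟩ : ∃ l : F, l ≠ 0 ∧ l ≠ 1 := by
            by_contra hc
            push Not at hc
            have h3 : (Finset.univ : Finset F) ⊆ {0, 1} := fun l _ => by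
              rcases eq_or_ne l 0 with h | h
              · simp [h]
              · simp [hc l h]
            have := (Finset.card_le_card h3).trans Finset.card_le_two
            rw [Finset.card_univ] at this
            omega
          refine absurd (rigid hfree hu hx0 (α := Units.mk0 α hα0) hα1 ?_
            (Or.inl ⟨hfull, hline, hq4⟩)) id
          ext c
          obtain ⟨c', rfl⟩ : ∃ c', α * α * c' = c := ⟨(α * α)⁻¹ * c, by field_simp⟩
          rw [show α * α * c' = (Units.mk0 α hα0 : F) * (Units.mk0 α hα0 : F) * c' from rfl,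
            mem_Z0_tor, hbot, AddSubgroup.mem_bot, AddSubgroup.mem_bot, Units.val_mk0, mul_eq_zero]
          simp [hα0]
        · let L : AddSubgroup F :=
            { carrier := {l : F | l • x ∈ Ann F m ω}
              add_mem' := fun {l l'} h h' => by
                simp only [Set.mem_setOf_eq, add_smul] at h h' ⊢; exact add_mem_Ann h h'
              zero_mem' := by simp [zero_mem_Ann]
              neg_mem' := fun {l} h => by
                simp only [Set.mem_setOf_eq, neg_smul] at h ⊢
                simpa using sub_mem_Ann (zero_mem_Ann ω) h }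
          have hLa : a = Nat.card L := by
            have himg : Ann F m ω = (Finset.univ.filter fun l : F => l ∈ L).image (· • x) := by
              ext v
              rw [Finset.mem_image]
              constructor
              · intro hv
                obtain ⟨l, rfl⟩ := hline v hv
                exact ⟨l, Finset.mem_filter.2 ⟨Finset.mem_univ _, hv⟩, rfl⟩
              · rintro ⟨l, hl, rfl⟩
                exact (Finset.mem_filter.1 hl).2
            rw [hadef, himg, Finset.card_image_of_injective _ (smul_left_injective F hx0),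
              ← SetLike.coe_sort_coe, Nat.card_coe_set_eq, ← Set.ncard_coe_finset]
            congr 1; ext l; simp
          have hLtop : L.index ≠ 1 := fun h => hfull fun l => by
            rw [AddSubgroup.index_eq_one] at h
            exact (h ▸ AddSubgroup.mem_top l : l ∈ L)
          have hLmul := L.card_mul_index
          rw [← hLa, Nat.card_eq_fintype_card] at hLmul
          have h2a : 2 * a ≤ q := by
            rw [hqdef, ← hLmul, mul_comm 2 a]
            refine Nat.mul_le_mul_left _ ?_
            have := L.index_ne_zero_of_finite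
            omega
          have hz1 : z = 1 := by rw [hzdef, hbot, AddSubgroup.card_bot]
          rw [one_mul, hz1, mul_one] at hone
          refine arith_small hq4 h2a (Finset.card_pos.2 ⟨x, hxA⟩) (hone.trans ?_) hM
          exact Nat.mul_le_mul_right _ (le_trans (Nat.le_mul_of_pos_left _ hC1) hCY)
      · exact even_case hq4 hfree ω hbot hM (hcancel 1 hone)
    · exfalso
      have hperp : ∀ w, stdB m F x w = 0 → w ∈ Wst F m ω := fun w hw => by
        rw [mem_Wst_iff]
        intro v hv
        obtain ⟨l, rfl⟩ := hline v hv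
        rw [map_smul, LinearMap.smul_apply, hw, smul_zero, AddChar.map_zero_eq_one]
      by_cases hm2 : 2 ≤ m
      · obtain ⟨y, hy⟩ := exists_pairing_one (stdB_nondegenerate m (F := F)) hx0
        obtain ⟨u, hu0, hux, huy⟩ := exists_perp_two hm2 x y
        obtain ⟨w', hw'x, hw'u⟩ := exists_perp_not hx0 (fun l hl => hu0 (by
          rw [hl, map_smul, LinearMap.smul_apply, hy, smul_eq_mul, mul_one] at huy
          rw [hl, huy, zero_smul]) : ∀ l : F, u ≠ l • x)
        refine Wst_ne_top_of_odd h2 hfree ω (w := u) (w' := w') (fun l => hperp _ ?_)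
          (hperp _ ?_) (by rw [hw'u]; exact one_ne_zero)
        · rw [map_smul, bneg u x, hux, neg_zero, smul_zero]
        · rw [bneg w' x, hw'x, neg_zero]
      · have hq4 : 4 ≤ q := by omega
        by_cases hfull : ∀ l : F, l • x ∈ Ann F m ω
        · refine rigid hfree hu hx0 (α := (-1 : Fˣ)) (fun h => h2 ?_) ?_ (Or.inl ⟨hfull, hline, hq4⟩)
          · rw [Units.val_neg, Units.val_one] at h
            linear_combination -h
          · ext c
            conv_lhs => rw [show c = ((-1 : Fˣ) : F) * ((-1 : Fˣ) : F) * c by simp]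
            rw [mem_Z0_tor]
        · push Not at hfull
          obtain ⟨l, hl⟩ := hfull
          obtain ⟨w, hw, hne⟩ : ∃ w ∈ Wst F m ω, psi F (stdB m F (l • x) w) ≠ 1 := by
            by_contra h
            push Not at h
            exact hl (mem_Ann.2 h)
          refine Wst_ne_top_of_odd h2 hfree ω (w := x) (w' := w) (fun k => hperp _ ?_) hw fun h => ?_
          · rw [map_smul, bself, smul_zero]
          · rw [map_smul, LinearMap.smul_apply, h, smul_zero, AddChar.map_zero_eq_one] at hne
            exact hne rfl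

end Cfsg.Agent.Lib.MinIndexSp
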