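import Cfsg.Agent.Lib.MinIndexSp.Free

/-!
The vectors whose root group fixes a point, and the degree of a permutation action.
-/

set_option autoImplicit false

namespace Cfsg.Agent.Lib.MinIndexSp

open Matrix Module Cfsg.Agent.Lib.Forms Cfsg.Agent.Lib.Classical
open Cfsg.Agent.Lib.MinDegForms.SpEven (Vc up down eVec fVec decomp down_add down_smul down_up down_eVec up_add up_smul up_zero mkSp mkSp_mulVec)

universe u v

attribute [local instance] _root_.Classical.propDecidable

variable {F : Type u} [Field F] [Fintype F] {n m : ℕ}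

theorem card_sub (U : Submodule F (Vc F n)) :
    (Finset.univ.filter fun x : Vc F n => x ∈ U).card = Fintype.card F ^ finrank F U := by
  rw [← Nat.card_eq_fintype_card, ← Module.natCard_eq_pow_finrank (K := F) (V := U),
    ← Set.ncard_coe_finset, ← SetLike.coe_sort_coe, Nat.card_coe_set_eq]
  congr 1; ext x; simp

theorem card_le_sub {S : Finset (Vc F n)} {U : Submodule F (Vc F n)}
    (h : ∀ a ∈ S, a ≠ 0 ∧ a ∈ U) : S.card ≤ Fintype.card F ^ finrank F U - 1 := by
  rw [← card_sub U, ← Finset.card_erase_of_mem (s := Finset.univ.filter fun x : Vc F n => x ∈ U)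
    (a := 0) (by simp)]
  refine Finset.card_le_card fun a ha => ?_
  exact Finset.mem_erase.2 ⟨(h a ha).1, Finset.mem_filter.2 ⟨Finset.mem_univ _, (h a ha).2⟩⟩

theorem finrank_Vc : finrank F (Vc F n) = 2 * n := by
  rw [Module.finrank_pi, Fintype.card_sum, Fintype.card_fin, two_mul]

theorem mem_orth {U : Submodule F (Vc F n)} {x : Vc F n} :
    x ∈ LinearMap.BilinForm.orthogonal (stdB n F) U ↔ ∀ u ∈ U, stdB n F u x = 0 :=
  LinearMap.BilinForm.mem_orthogonal_iff

theorem finrank_orth (U : Submodule F (Vc F n)) :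
    finrank F (LinearMap.BilinForm.orthogonal (stdB n F) U) + finrank F U = 2 * n := by
  rw [LinearMap.BilinForm.finrank_orthogonal (stdB_nondegenerate n (F := F)) U, ← finrank_Vc (F := F)]
  exact Nat.sub_add_cancel (Submodule.finrank_le U)

theorem exists_split {U : Submodule F (Vc F n)}
    (hU : U ⊓ LinearMap.BilinForm.orthogonal (stdB n F) U = ⊥) (x : Vc F n) :
    ∃ y ∈ U, ∃ z ∈ LinearMap.BilinForm.orthogonal (stdB n F) U, x = y + z := by
  have h1 := Submodule.finrank_sup_add_finrank_inf_eq U (LinearMap.BilinForm.orthogonal (stdB n F) U)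
  have h2 := LinearMap.BilinForm.finrank_orthogonal (stdB_nondegenerate n (F := F)) U
  have h3 := Submodule.finrank_le U
  rw [hU, finrank_bot, add_zero, h2, Nat.add_sub_cancel' h3] at h1
  have hx : x ∈ U ⊔ LinearMap.BilinForm.orthogonal (stdB n F) U := by
    rw [Submodule.eq_top_of_finrank_eq h1]; trivial
  obtain ⟨y, hy, z, hz, h⟩ := Submodule.mem_sup.1 hx
  exact ⟨y, hy, z, hz, h.symm⟩

theorem exists_partner {U : Submodule F (Vc F n)}
    (hU : U ⊓ LinearMap.BilinForm.orthogonal (stdB n F) U = ⊥) {u : Vc F n} (hu : u ∈ U)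
    (hu0 : u ≠ 0) : ∃ p ∈ U, stdB n F p u ≠ 0 := by
  by_contra h
  push Not at h
  exact hu0 ((Submodule.mem_bot F).1 (hU ▸ ⟨hu, mem_orth.2 h⟩))

theorem exists_rep' (L : Vc F n →ₗ[F] F) : ∃ v, ∀ w, stdB n F v w = L w :=
  ⟨_, LinearMap.BilinForm.apply_toDual_symm_apply (hB := stdB_nondegenerate n (F := F)) L⟩

variable {Ω : Type v} [MulAction (Matrix.symplecticGroup (Fin (m + 1)) F) Ω]

variable (m F) in
/-- The vectors whose root group fixes the point. -/
noncomputable def rootSet (y : Ω) : Finset (Vc F (m + 1)) :=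
  Finset.univ.filter fun a => a ≠ 0 ∧ ∀ t : F, spT (m + 1) a t • y = y

theorem mem_rootSet {y : Ω} {a : Vc F (m + 1)} :
    a ∈ rootSet F m y ↔ a ≠ 0 ∧ ∀ t : F, spT (m + 1) a t • y = y := by simp [rootSet]

theorem rootSet_smul_mem (g : Matrix.symplecticGroup (Fin (m + 1)) F) (y : Ω) (a : Vc F (m + 1)) :
    g.1 *ᵥ a ∈ rootSet F m (g • y) ↔ a ∈ rootSet F m y := by
  rw [mem_rootSet, mem_rootSet]
  refine and_congr ⟨fun h h0 => h (by rw [h0, mulVec_zero]), fun h h0 => h ?_⟩
    (forall_congr' fun t => ?_)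
  · have := congrArg ((g⁻¹).1 *ᵥ ·) h0
    simpa [mulVec_mulVec, ← Submonoid.coe_mul] using this
  · rw [← spT_conj, mul_smul, mul_smul, inv_smul_smul, smul_left_cancel_iff]

theorem rootSet_scale {y : Ω} {a : Vc F (m + 1)} (ha : a ∈ rootSet F m y) {l : F} (hl : l ≠ 0) :
    l • a ∈ rootSet F m y := by
  rw [mem_rootSet] at ha ⊢
  exact ⟨smul_ne_zero hl ha.1, fun t => by rw [spT_smul]; exact ha.2 _⟩

theorem rootSet_plane {y : Ω} {a b : Vc F (m + 1)} (ha : a ∈ rootSet F m y)
    (hb : b ∈ rootSet F m y) (hB : stdB (m + 1) F b a ≠ 0) (l : F) :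
    l • a + b ∈ rootSet F m y := by
  have hg : (spT (m + 1) a (l / stdB (m + 1) F b a)).1 *ᵥ b = l • a + b := by
    rw [spT_mulVec, div_mul_cancel₀ _ hB]; exact add_comm _ _
  have h := (rootSet_smul_mem (spT (m + 1) a (l / stdB (m + 1) F b a)) y b).2 hb
  rwa [(mem_rootSet.1 ha).2, hg] at h

theorem rootSet_add {y : Ω} {a b : Vc F (m + 1)} (ha : a ∈ rootSet F m y)
    (hb : b ∈ rootSet F m y) (hB : stdB (m + 1) F a b ≠ 0) : a + b ∈ rootSet F m y := by
  have h := rootSet_plane ha hb (by rwa [bneg a b, neg_ne_zero]) 1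
  rwa [one_smul] at h

theorem rootSet_stab {y : Ω} {g : Matrix.symplecticGroup (Fin (m + 1)) F} (hg : g • y = y)
    {a : Vc F (m + 1)} (ha : a ∈ rootSet F m y) : g.1 *ᵥ a ∈ rootSet F m y := by
  have := (rootSet_smul_mem g y a).2 ha
  rwa [hg] at this

theorem eVec_mem_iff {y : Ω} : eVec F m ∈ rootSet F m y ↔ Z0 F m y = ⊤ := by
  rw [mem_rootSet, eq_top_iff]
  simp only [SetLike.le_def, AddSubgroup.mem_top, true_implies, mem_Z0, rho_central, ne_eq,
    eVec_ne_zero, not_false_eq_true, true_and]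

variable [Fintype Ω] [MulAction.IsPretransitive (Matrix.symplecticGroup (Fin (m + 1)) F) Ω]

variable (m F Ω) in
/-- The points fixed by the root group of the first vector. -/
noncomputable def fixedE : Finset Ω := Finset.univ.filter fun y => eVec F m ∈ rootSet F m y

theorem card_rootSet_eq (ω y : Ω) : (rootSet F m y).card = (rootSet F m ω).card := by
  obtain ⟨g, rfl⟩ := MulAction.exists_smul_eq (Matrix.symplecticGroup (Fin (m + 1)) F) ω y
  refine (Finset.card_bij (fun a _ => g.1 *ᵥ a) (fun a ha => (rootSet_smul_mem g ω a).2 ha) ?_ ?_).symm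
  · intro a _ b _ h
    have := congrArg ((g⁻¹).1 *ᵥ ·) h
    simpa [mulVec_mulVec, ← Submonoid.coe_mul] using this
  · intro b hb
    refine ⟨(g⁻¹).1 *ᵥ b, (rootSet_smul_mem g ω _).1 ?_, mulVec_inv_cancel g b⟩
    rwa [mulVec_inv_cancel]

theorem count_rootSet (ω : Ω) : Fintype.card Ω * (rootSet F m ω).card =
    (Fintype.card F ^ (2 * (m + 1)) - 1) * (fixedE F m Ω).card := by
  have h1 : ∑ y : Ω, (rootSet F m y).card = Fintype.card Ω * (rootSet F m ω).card := by
    rw [Finset.sum_congr rfl fun y _ => card_rootSet_eq ω y, Finset.sum_const, Finset.card_univ,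
      smul_eq_mul]
  have h2 : ∀ a : Vc F (m + 1), a ≠ 0 →
      (Finset.univ.filter fun y : Ω => a ∈ rootSet F m y).card = (fixedE F m Ω).card := by
    intro a ha
    obtain ⟨g, hg⟩ := sp_transitive (m + 1) (eVec_ne_zero (F := F) (m := m)) ha
    refine (Finset.card_bij (fun y _ => g • y) (fun y hy => ?_)
      (fun y _ y' _ h => smul_left_cancel _ h) (fun y hy => ⟨g⁻¹ • y, ?_, smul_inv_smul g y⟩)).symm
    · refine Finset.mem_filter.2 ⟨Finset.mem_univ _, ?_⟩
      rw [← hg, rootSet_smul_mem]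
      exact (Finset.mem_filter.1 hy).2
    · refine Finset.mem_filter.2 ⟨Finset.mem_univ _, ?_⟩
      rw [← rootSet_smul_mem g, smul_inv_smul, hg]
      exact (Finset.mem_filter.1 hy).2
  have h3 : ∑ y : Ω, (rootSet F m y).card =
      ∑ a : Vc F (m + 1), (Finset.univ.filter fun y : Ω => a ∈ rootSet F m y).card := by
    simp only [Finset.card_filter]
    rw [Finset.sum_comm]
    exact Finset.sum_congr rfl fun y _ => by rw [Finset.sum_boole, Finset.filter_univ_mem, Nat.cast_id]
  rw [← h1, h3, ← Finset.sum_erase (a := (0 : Vc F (m + 1))) _ (by simp [mem_rootSet]),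
    Finset.sum_congr rfl fun a ha => h2 a (Finset.ne_of_mem_erase ha), Finset.sum_const,
    Finset.card_erase_of_mem (Finset.mem_univ _), Finset.card_univ, card_Vc, smul_eq_mul]

theorem not_all_roots (hΩ : 2 ≤ Fintype.card Ω) (ω : Ω) :
    ∃ a : Vc F (m + 1), a ≠ 0 ∧ a ∉ rootSet F m ω := by
  by_contra hc
  push Not at hc
  have h : MulAction.stabilizer (Matrix.symplecticGroup (Fin (m + 1)) F) ω = ⊤ :=
    sp_eq_top_of_spT (m + 1) _ fun v c => by
      rw [MulAction.mem_stabilizer_iff]
      rcases eq_or_ne v 0 with rfl | hv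
      · rw [spT_zero, one_smul]
      · exact (mem_rootSet.1 (hc v hv)).2 c
  obtain ⟨a, b, hab⟩ := Fintype.one_lt_card_iff.1 hΩ
  have hall : ∀ y : Ω, y = ω := fun y => by
    obtain ⟨g, rfl⟩ := MulAction.exists_smul_eq (Matrix.symplecticGroup (Fin (m + 1)) F) ω y
    exact MulAction.mem_stabilizer_iff.1 (h ▸ Subgroup.mem_top g)
  exact hab ((hall a).trans (hall b).symm)

/-- Pairwise orthogonal root vectors. -/
theorem card_rootSet_isotropic (ω : Ω) (he : eVec F m ∈ rootSet F m ω)
    (hperp : ∀ a ∈ rootSet F m ω, ∀ b ∈ rootSet F m ω, stdB (m + 1) F a b = 0) :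
    (rootSet F m ω).card ≤ (Fintype.card F - 1) * (fixedE F m Ω).card := by
  set q := Fintype.card F with hq
  set U := Submodule.span F (rootSet F m ω : Set (Vc F (m + 1))) with hU
  have hiso : ∀ x ∈ U, ∀ y ∈ U, stdB (m + 1) F x y = 0 := by
    intro x hx y hy
    induction hx using Submodule.span_induction with
    | mem a ha =>
      induction hy using Submodule.span_induction with
      | mem b hb => exact hperp a ha b hb
      | zero => simp
      | add b c _ _ hb hc => rw [map_add, hb, hc, add_zero]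
      | smul l b _ hb => rw [map_smul, hb, smul_zero]
    | zero => simp
    | add a c _ _ ha hc => rw [map_add, LinearMap.add_apply, ha, hc, add_zero]
    | smul l a _ ha => rw [map_smul, LinearMap.smul_apply, ha, smul_zero]
  have heU : eVec F m ∈ U := Submodule.subset_span he
  have hL : (rootSet F m ω).card ≤ q ^ finrank F U - 1 :=
    card_le_sub fun a ha => ⟨(mem_rootSet.1 ha).1, Submodule.subset_span ha⟩
  set ev : Module.Dual F U →ₗ[F] F := LinearMap.applyₗ (⟨eVec F m, heU⟩ : U) with hev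
  haveI : Finite (Module.Dual F U) := Module.finite_of_finite F
  haveI : Fintype (LinearMap.ker ev) := Fintype.ofFinite _
  obtain ⟨k, hk⟩ : ∃ k, finrank F U = k + 1 := by
    refine ⟨finrank F U - 1, ?_⟩
    have : finrank F U ≠ 0 := fun h => eVec_ne_zero (F := F) (m := m) (by
      rw [Submodule.finrank_eq_zero] at h
      rwa [h, Submodule.mem_bot] at heU)
    omega
  have hker : Fintype.card (LinearMap.ker ev) = q ^ k := by
    obtain ⟨φ, hφ⟩ :=
      exists_pairing_one (stdB_nondegenerate (m + 1) (F := F)) (eVec_ne_zero (F := F) (m := m))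
    have hsurj : Function.Surjective ev := fun c =>
      ⟨((c • (stdB (m + 1) F).flip φ).comp U.subtype), by
        simp [hev, hφ]⟩
    have h1 := LinearMap.finrank_range_add_finrank_ker ev
    rw [LinearMap.range_eq_top.2 hsurj, finrank_top, Module.finrank_self, Subspace.dual_finrank_eq,
      hk] at h1
    rw [← Nat.card_eq_fintype_card, Module.natCard_eq_pow_finrank (K := F),
      Nat.card_eq_fintype_card, ← hq, show finrank F (LinearMap.ker ev) = k by omega]
  set K := (Finset.univ : Finset (LinearMap.ker ev)).erase 0 with hK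
  have hex : ∀ φ : LinearMap.ker ev, φ ≠ 0 → ∃ b u₁, u₁ ∈ U ∧ stdB (m + 1) F u₁ b = 1 ∧
      stdB (m + 1) F (eVec F m) b = 0 ∧ ∀ u : U, stdB (m + 1) F (u : Vc F (m + 1)) b = φ.1 u := by
    intro φ hφ
    obtain ⟨L, hLU⟩ := LinearMap.exists_extend φ.1
    obtain ⟨v, hv⟩ := exists_rep' L
    have hb : ∀ u : U, stdB (m + 1) F (u : Vc F (m + 1)) (-v) = φ.1 u := fun u => by
      rw [map_neg, bneg v, neg_neg, hv, ← hLU]; rfl
    obtain ⟨u, hu⟩ : ∃ u, φ.1 u ≠ 0 := by
      by_contra h
      push Not at h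
      exact hφ (Subtype.ext (LinearMap.ext h))
    refine ⟨-v, (((φ.1 u)⁻¹ • u : U) : Vc F (m + 1)), Subtype.coe_prop _, ?_, ?_, hb⟩
    · rw [hb, map_smul, smul_eq_mul, inv_mul_cancel₀ hu]
    · exact (hb ⟨_, heU⟩).trans (LinearMap.mem_ker.1 φ.2)
  choose! bf uf huf hbu hbe hbφ using hex
  let gf : LinearMap.ker ev × F → Matrix.symplecticGroup (Fin (m + 1)) F := fun p =>
    spT (m + 1) (bf p.1 + (p.2 - 1) • uf p.1) 1
  have hgf : ∀ p : LinearMap.ker ev × F, p.1 ≠ 0 → ∀ u : U, (gf p).1 *ᵥ (u : Vc F (m + 1)) =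
      u + p.1.1 u • (bf p.1 + (p.2 - 1) • uf p.1) := by
    intro p hp u
    simp only [gf]
    rw [spT_mulVec, one_mul, map_add, map_smul, hbφ p.1 hp u, hiso _ u.2 _ (huf p.1 hp),
      smul_zero, add_zero]
  have hge : ∀ p : LinearMap.ker ev × F, p.1 ≠ 0 → (gf p).1 *ᵥ eVec F m = eVec F m := by
    intro p hp
    have h := hgf p hp ⟨_, heU⟩
    rw [show p.1.1 ⟨_, heU⟩ = 0 from LinearMap.mem_ker.1 p.1.2, zero_smul, add_zero] at h
    exact h
  have hb_notin : ∀ φ : LinearMap.ker ev, φ ≠ 0 → bf φ ∉ U := fun φ hφ h => by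
    have := hbu φ hφ
    rw [hiso _ (huf φ hφ) _ h] at this
    exact zero_ne_one this
  -- the spans of the translates
  let sp : Matrix.symplecticGroup (Fin (m + 1)) F → Submodule F (Vc F (m + 1)) := fun g =>
    Submodule.map (Matrix.mulVecLin g.1) U
  have hmem : ∀ p : LinearMap.ker ev × F, p.1 ≠ 0 → bf p.1 + p.2 • uf p.1 ∈ sp (gf p) := by
    intro p hp
    refine ⟨uf p.1, huf p.1 hp, ?_⟩
    rw [Matrix.mulVecLin_apply, hgf p hp ⟨_, huf p.1 hp⟩]
    rw [show p.1.1 ⟨_, huf p.1 hp⟩ = 1 by rw [← hbφ p.1 hp]; exact hbu p.1 hp, one_smul]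
    module
  have hnotin : ∀ p : LinearMap.ker ev × F, p.1 ≠ 0 → bf p.1 + p.2 • uf p.1 ∉ U := fun p hp h =>
    hb_notin p.1 hp ((Submodule.add_mem_iff_left _ (U.smul_mem _ (huf p.1 hp))).1 h)
  set P := K ×ˢ (Finset.univ : Finset F) with hP
  set I := P.image (fun p => sp (gf p)) with hI
  have hfib : P.card ≤ (q - 1) * I.card := by
    refine Finset.card_le_mul_card_image _ (q - 1) fun W hW => ?_
    obtain ⟨p₀, hp₀, rfl⟩ := Finset.mem_image.1 hW
    have h0 : p₀.1 ≠ 0 := Finset.ne_of_mem_erase (Finset.mem_product.1 hp₀).1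
    have hprop : ∀ p ∈ P.filter (fun p => sp (gf p) = sp (gf p₀)),
        ∃ κ : F, κ ≠ 0 ∧ p.1 = κ • p₀.1 := by
      intro p hp
      obtain ⟨hpP, hpeq⟩ := Finset.mem_filter.1 hp
      have h1 : p.1 ≠ 0 := Finset.ne_of_mem_erase (Finset.mem_product.1 hpP).1
      have h2 := hmem p h1
      rw [hpeq] at h2
      obtain ⟨u, hu, hgu⟩ := h2
      rw [Matrix.mulVecLin_apply, hgf p₀ h0 ⟨u, hu⟩] at hgu
      refine ⟨p₀.1.1 ⟨u, hu⟩, fun h => hnotin p h1 ?_, ?_⟩
      · rw [← hgu, h, zero_smul, add_zero]; exact hu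
      · refine Subtype.ext (LinearMap.ext fun x => ?_)
        have h3 := congrArg (stdB (m + 1) F (x : Vc F (m + 1))) hgu
        simp only [map_add, map_smul, smul_eq_mul, hiso _ x.2 _ hu, hiso _ x.2 _ (huf p₀.1 h0),
          hiso _ x.2 _ (huf p.1 h1), hbφ p.1 h1, hbφ p₀.1 h0, mul_zero, add_zero, zero_add] at h3
        rw [Submodule.coe_smul, LinearMap.smul_apply, smul_eq_mul]
        exact h3.symm
    calc (P.filter fun p => sp (gf p) = sp (gf p₀)).card
        ≤ (((Finset.univ : Finset F).erase 0).image fun κ => κ • p₀.1).card := by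
          refine Finset.card_le_card_of_injOn Prod.fst (fun p hp => ?_) (fun p hp p' hp' h => ?_)
          · obtain ⟨κ, hκ, h⟩ := hprop p hp
            exact Finset.mem_image.2 ⟨κ, Finset.mem_erase.2 ⟨hκ, Finset.mem_univ _⟩, h.symm⟩
          · obtain ⟨hpP, hpeq⟩ := Finset.mem_filter.1 hp
            obtain ⟨-, hpeq'⟩ := Finset.mem_filter.1 hp'
            have h1 : p.1 ≠ 0 := Finset.ne_of_mem_erase (Finset.mem_product.1 hpP).1
            refine Prod.ext h ?_
            by_contra hne
            have e1 := hmem p h1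
            have e2 := hmem p' (h ▸ h1)
            rw [hpeq'.trans hpeq.symm, ← h] at e2
            have e3 : uf p.1 ∈ sp (gf p) := by
              have := (sp (gf p)).smul_mem (p.2 - p'.2)⁻¹ ((sp (gf p)).sub_mem e1 e2)
              rwa [show bf p.1 + p.2 • uf p.1 - (bf p.1 + p'.2 • uf p.1) = (p.2 - p'.2) • uf p.1 by
                module, smul_smul, inv_mul_cancel₀ (sub_ne_zero.2 hne), one_smul] at this
            obtain ⟨u, hu, hgu⟩ := e3
            rw [Matrix.mulVecLin_apply, hgf p h1 ⟨u, hu⟩] at hgu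
            have h4 : p.1.1 ⟨u, hu⟩ = 0 := by
              by_contra h4
              refine hb_notin p.1 h1 ?_
              have h5 : p.1.1 ⟨u, hu⟩ • bf p.1 = uf p.1 - u -
                  (p.1.1 ⟨u, hu⟩ * (p.2 - 1)) • uf p.1 := by
                linear_combination (norm := module) hgu
              have h6 := U.smul_mem (p.1.1 ⟨u, hu⟩)⁻¹ (U.sub_mem (U.sub_mem (huf p.1 h1) hu)
                (U.smul_mem (p.1.1 ⟨u, hu⟩ * (p.2 - 1)) (huf p.1 h1)))
              rwa [← h5, smul_smul, inv_mul_cancel₀ h4, one_smul] at h6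
            have h7 : stdB (m + 1) F u (bf p.1) = 0 := (hbφ p.1 h1 ⟨u, hu⟩).trans h4
            rw [show (⟨u, hu⟩ : U).1 = u from rfl, h4, zero_smul, add_zero] at hgu
            rw [hgu, hbu p.1 h1] at h7
            exact one_ne_zero h7
      _ ≤ _ := le_trans Finset.card_image_le
          (by rw [Finset.card_erase_of_mem (Finset.mem_univ _), Finset.card_univ])
  have hIf : I.card + 1 ≤ (fixedE F m Ω).card := by
    have hUI : U ∉ I := fun h => by
      obtain ⟨p, hp, he'⟩ := Finset.mem_image.1 h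
      have h1 : p.1 ≠ 0 := Finset.ne_of_mem_erase (Finset.mem_product.1 hp).1
      have h3 := hmem p h1
      rw [he'] at h3
      exact hnotin p h1 h3
    rw [← Finset.card_insert_of_notMem hUI]
    refine le_trans (Finset.card_le_card fun W hW => ?_) (Finset.card_image_le
      (s := fixedE F m Ω) (f := fun y => Submodule.span F (rootSet F m y : Set (Vc F (m + 1)))))
    rw [Finset.mem_image]
    rcases Finset.mem_insert.1 hW with rfl | hW
    · exact ⟨ω, Finset.mem_filter.2 ⟨Finset.mem_univ _, he⟩, rfl⟩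
    · obtain ⟨p, hp, rfl⟩ := Finset.mem_image.1 hW
      have h1 : p.1 ≠ 0 := Finset.ne_of_mem_erase (Finset.mem_product.1 hp).1
      refine ⟨gf p • ω, Finset.mem_filter.2 ⟨Finset.mem_univ _, ?_⟩, ?_⟩
      · rw [← hge p h1, rootSet_smul_mem]; exact he
      · change _ = Submodule.map (Matrix.mulVecLin (gf p).1) U
        rw [hU, Submodule.map_span]
        congr 1
        ext a
        simp only [Finset.mem_coe, Set.mem_image, Matrix.mulVecLin_apply]
        constructor
        · intro ha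
          refine ⟨((gf p)⁻¹).1 *ᵥ a, (rootSet_smul_mem (gf p) ω _).1 ?_, mulVec_inv_cancel _ a⟩
          rwa [mulVec_inv_cancel]
        · rintro ⟨b, hb, rfl⟩
          exact (rootSet_smul_mem _ _ _).2 hb
  have hPc : P.card = (q ^ k - 1) * q := by
    rw [hP, Finset.card_product, hK, Finset.card_erase_of_mem (Finset.mem_univ _), Finset.card_univ,
      Finset.card_univ, hker]
  rw [hPc] at hfib
  refine hL.trans ?_
  rw [hk, pow_succ]
  have h1 : (q - 1) * (I.card + 1) ≤ (q - 1) * (fixedE F m Ω).card := Nat.mul_le_mul_left _ hIf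
  rw [Nat.mul_succ] at h1
  have h2 : (q ^ k - 1) * q = q ^ k * q - q := by rw [Nat.sub_mul, one_mul]
  omega

/-- Full subspaces grow. -/
theorem exists_larger (hq : 3 ≤ Fintype.card F) (ω : Ω)
    (hspan : Submodule.span F (rootSet F m ω : Set (Vc F (m + 1))) = ⊤)
    {U : Submodule F (Vc F (m + 1))}
    (hU : U ⊓ LinearMap.BilinForm.orthogonal (stdB (m + 1) F) U = ⊥)
    (hfull : ∀ u ∈ U, u ≠ 0 → u ∈ rootSet F m ω) {u v : Vc F (m + 1)} (hu : u ∈ U) (hu0 : u ≠ 0)
    (hv : v ∈ LinearMap.BilinForm.orthogonal (stdB (m + 1) F) U) (hv0 : v ≠ 0)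
    (hb : u + v ∈ rootSet F m ω) :
    ∃ U' : Submodule F (Vc F (m + 1)),
      U' ⊓ LinearMap.BilinForm.orthogonal (stdB (m + 1) F) U' = ⊥ ∧
      (∀ x ∈ U', x ≠ 0 → x ∈ rootSet F m ω) ∧ U < U' := by
  have hUv : ∀ z ∈ U, stdB (m + 1) F z v = 0 := fun z hz => mem_orth.1 hv z hz
  have hvU : ∀ z ∈ U, stdB (m + 1) F v z = 0 := fun z hz => by rw [bneg z v, hUv z hz, neg_zero]
  have hX1 : ∀ z ∈ U, z ≠ 0 → z + v ∈ rootSet F m ω := by
    intro z hz hz0
    obtain ⟨p1, hp1, h1⟩ := exists_partner hU hu hu0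
    obtain ⟨p2, hp2, h2⟩ := exists_partner hU hz hz0
    obtain ⟨p, hp, hpu, hpz⟩ : ∃ p ∈ U, stdB (m + 1) F p u ≠ 0 ∧ stdB (m + 1) F z p ≠ 0 := by
      by_cases h3 : stdB (m + 1) F z p1 = 0
      · by_cases h4 : stdB (m + 1) F p2 u = 0
        · refine ⟨p1 + p2, U.add_mem hp1 hp2, ?_, ?_⟩
          · rwa [map_add, LinearMap.add_apply, h4, add_zero]
          · rw [map_add, h3, zero_add, bneg p2 z, neg_ne_zero]; exact h2
        · exact ⟨p2, hp2, h4, by rw [bneg p2 z, neg_ne_zero]; exact h2⟩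
      · exact ⟨p1, hp1, h1, h3⟩
    have hb1 : p + (u + v) ∈ rootSet F m ω :=
      rootSet_add (hfull p hp (fun h => hpu (by rw [h]; simp))) hb
        (by rw [map_add, hUv p hp, add_zero]; exact hpu)
    rcases eq_or_ne (z - (p + u)) 0 with h0 | h0
    · rw [sub_eq_zero] at h0
      rwa [h0, add_assoc]
    · rcases eq_or_ne (stdB (m + 1) F (z - u) u) 0 with h5 | h5
      · have := rootSet_add (hfull _ (U.sub_mem hz (U.add_mem hp hu)) h0) hb1 (by
          simp only [map_add, map_sub, LinearMap.sub_apply, LinearMap.add_apply, hUv z hz, hUv p hp,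
            hUv u hu, bself] at h5 ⊢
          rw [bneg p u]
          intro h
          apply hpz
          linear_combination h - h5)
        rwa [show z - (p + u) + (p + (u + v)) = z + v by abel] at this
      · have := rootSet_add (hfull _ (U.sub_mem hz hu) (fun h => h5 (by rw [h]; simp))) hb (by
          rwa [map_add, hUv _ (U.sub_mem hz hu), add_zero])
        rwa [show z - u + (u + v) = z + v by abel] at this
  have hX : ∀ z ∈ U, z ≠ 0 → ∀ μ : F, z + μ • v ∈ rootSet F m ω := by
    intro z hz hz0 μ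
    rcases eq_or_ne μ 0 with rfl | hμ
    · rw [zero_smul, add_zero]; exact hfull z hz hz0
    · have h := rootSet_scale (hX1 (μ⁻¹ • z) (U.smul_mem _ hz) (smul_ne_zero (inv_ne_zero hμ) hz0)) hμ
      rwa [smul_add, smul_smul, mul_inv_cancel₀ hμ, one_smul] at h
  obtain ⟨w, hw, hvw⟩ : ∃ w ∈ rootSet F m ω, stdB (m + 1) F v w ≠ 0 := by
    by_contra h
    push Not at h
    have hle : Submodule.span F (rootSet F m ω : Set (Vc F (m + 1))) ≤ LinearMap.ker (stdB (m + 1) F v) :=
      Submodule.span_le.2 fun w hw => h w hw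
    rw [hspan] at hle
    obtain ⟨t, ht⟩ := exists_pairing_one (stdB_nondegenerate (m + 1) (F := F)) hv0
    have h2 := LinearMap.mem_ker.1 (hle (Submodule.mem_top (x := t)))
    rw [ht] at h2
    exact one_ne_zero h2
  obtain ⟨u3, hu3, v3, hv3, rfl⟩ := exists_split hU w
  have hU3 : ∀ z ∈ U, stdB (m + 1) F z v3 = 0 := fun z hz => mem_orth.1 hv3 z hz
  have h3U : ∀ z ∈ U, stdB (m + 1) F v3 z = 0 := fun z hz => by rw [bneg z v3, hU3 z hz, neg_zero]
  set c := stdB (m + 1) F v v3 with hc
  have hc0 : c ≠ 0 := by rwa [map_add, hvU u3 hu3, zero_add, ← hc] at hvw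
  have hgood : ∀ u4 ∈ U, ∀ a4 : F, u4 ≠ u3 → stdB (m + 1) F u4 u3 + a4 * c ≠ 0 →
      u4 + a4 • v + v3 ∈ rootSet F m ω := by
    intro u4 hu4 a4 hne hB
    have := rootSet_add (hX (u4 - u3) (U.sub_mem hu4 hu3) (sub_ne_zero.2 hne) a4) hw (by
      simp only [map_add, map_sub, map_smul, LinearMap.sub_apply, LinearMap.add_apply,
        LinearMap.smul_apply, smul_eq_mul, bself, hU3 u4 hu4, hU3 u3 hu3, hvU u3 hu3, ← hc, mul_zero,
        zero_add, add_zero, sub_zero]
      exact hB)
    rwa [show u4 - u3 + a4 • v + (u3 + v3) = u4 + a4 • v + v3 by abel] at this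
  have hpick : ∀ (z : Vc F (m + 1)) (r1 r2 : F → F), ∃ u4 ∈ U, u4 ≠ u3 ∧ u4 ≠ z := by
    intro z _ _
    by_contra h
    push Not at h
    obtain ⟨p, hp, hpu⟩ := exists_partner hU hu hu0
    have hsub : (Finset.univ.filter fun x : Vc F (m + 1) => x ∈ U) ⊆ {u3, z} := fun x hx => by
      rcases eq_or_ne x u3 with h' | h'
      · simp [h']
      · simp [h x (Finset.mem_filter.1 hx).2 h']
    have h1 := (Finset.card_le_card hsub).trans Finset.card_le_two
    rw [card_sub] at h1
    have h2 : 1 ≤ finrank F U := Nat.one_le_iff_ne_zero.2 fun h0 => hu0 (by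
      rw [Submodule.finrank_eq_zero] at h0
      rwa [h0, Submodule.mem_bot] at hu)
    have h3 : Fintype.card F ≤ Fintype.card F ^ finrank F U := Nat.le_self_pow (by omega) _
    omega
  have havoid : ∀ A B : F, ∃ a : F, a ≠ A ∧ a ≠ B := by
    intro A B
    by_contra h
    push Not at h
    have hsub : (Finset.univ : Finset F) ⊆ {A, B} := fun a _ => by
      rcases eq_or_ne a A with h' | h'
      · simp [h']
      · simp [h a h']
    have h1 := (Finset.card_le_card hsub).trans Finset.card_le_two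
    rw [Finset.card_univ] at h1
    omega
  have hbeta : ∀ z ∈ U, ∀ α : F, z + α • v + v3 ∈ rootSet F m ω := by
    intro z hz α
    obtain ⟨u4, hu4, h43, h4z⟩ := hpick z id id
    obtain ⟨a4, ha1, ha2⟩ := havoid (-(stdB (m + 1) F u4 u3) / c) (α + stdB (m + 1) F z u4 / c)
    have hw4 := hgood u4 hu4 a4 h43 (fun h => ha1 (by field_simp; linear_combination h))
    have := rootSet_add (hX (z - u4) (U.sub_mem hz hu4) (sub_ne_zero.2 (Ne.symm h4z)) (α - a4)) hw4
      (by
        simp only [map_add, map_sub, map_smul, LinearMap.sub_apply, LinearMap.add_apply,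
          LinearMap.smul_apply, smul_eq_mul, bself, hUv z hz, hUv u4 hu4, hU3 z hz, hU3 u4 hu4,
          hvU u4 hu4, ← hc, mul_zero, zero_add, add_zero, sub_zero]
        intro h
        apply ha2
        field_simp
        linear_combination (-1 : F) * h)
    rwa [show z - u4 + (α - a4) • v + (u4 + a4 • v + v3) = z + α • v + v3 by module] at this
  have hpure : v ∈ rootSet F m ω := by
    have h1 := hbeta 0 U.zero_mem (1 : F)
    have h2 : -((0 : Vc F (m + 1)) + (0 : F) • v + v3) ∈ rootSet F m ω := by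
      rw [← neg_one_smul F]
      exact rootSet_scale (hbeta 0 U.zero_mem 0) (by simp)
    have := rootSet_add h1 h2 (by
      simp only [zero_smul, one_smul, zero_add, map_add, map_neg, LinearMap.add_apply, bself,
        ← hc, neg_zero, add_zero]
      simpa using hc0)
    rwa [show (0 : Vc F (m + 1)) + (1 : F) • v + v3 + -((0 : Vc F (m + 1)) + (0 : F) • v + v3) = v by
      module] at this
  let U' : Submodule F (Vc F (m + 1)) := U ⊔ Submodule.span F {v, v3}
  have hdecomp : ∀ x ∈ U', ∃ z ∈ U, ∃ α β : F, x = z + α • v + β • v3 := by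
    intro x hx
    obtain ⟨z, hz, y, hy, rfl⟩ := Submodule.mem_sup.1 hx
    obtain ⟨α, β, rfl⟩ := Submodule.mem_span_pair.1 hy
    exact ⟨z, hz, α, β, by rw [add_assoc]⟩
  have hvU' : v ∈ U' := Submodule.mem_sup_right (Submodule.subset_span (by simp))
  have hv3U' : v3 ∈ U' := Submodule.mem_sup_right (Submodule.subset_span (by simp))
  refine ⟨U', ?_, ?_, ?_⟩
  · rw [Submodule.eq_bot_iff]
    rintro x ⟨hx, hxo⟩
    obtain ⟨z, hz, α, β, rfl⟩ := hdecomp x hx
    have hxo' := mem_orth.1 hxo
    have hz0 : z = 0 := by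
      refine (Submodule.mem_bot F).1 (hU ▸ ⟨hz, mem_orth.2 fun p hp => ?_⟩)
      have := hxo' p (Submodule.mem_sup_left hp)
      simpa [map_add, map_smul, hUv p hp, hU3 p hp] using this
    have h1 := hxo' v hvU'
    have h2 := hxo' v3 hv3U'
    rw [hz0] at h1 h2 ⊢
    simp only [zero_add, map_add, map_smul, bself, smul_eq_mul, mul_zero, add_zero, ← hc] at h1 h2
    rw [bneg v v3, ← hc] at h2
    have hβ : β = 0 := (mul_eq_zero.1 h1).resolve_right hc0
    have hα : α = 0 := (mul_eq_zero.1 h2).resolve_right (neg_ne_zero.2 hc0)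
    rw [hα, hβ, zero_smul, zero_smul, add_zero, add_zero]
  · intro x hx hx0
    obtain ⟨z, hz, α, β, rfl⟩ := hdecomp x hx
    rcases eq_or_ne β 0 with rfl | hβ
    · rw [zero_smul, add_zero] at hx0 ⊢
      rcases eq_or_ne z 0 with rfl | hz0
      · rw [zero_add] at hx0 ⊢
        exact rootSet_scale hpure (fun h => hx0 (by rw [h, zero_smul]))
      · exact hX z hz hz0 α
    · have h := rootSet_scale (hbeta (β⁻¹ • z) (U.smul_mem _ hz) (β⁻¹ * α)) hβ
      rwa [smul_add, smul_add, smul_smul, smul_smul, mul_inv_cancel₀ hβ, one_smul,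
        mul_inv_cancel_left₀ hβ] at h
  · refine lt_of_le_of_ne le_sup_left fun h => hv0 ((Submodule.mem_bot F).1 (hU ▸ ⟨?_, hv⟩))
    change v ∈ U
    rw [h]
    exact hvU'

theorem bound_of_line (ω : Ω) {x : Vc F (m + 1)} (hx : x ≠ 0)
    (hfix : ∀ g : Matrix.symplecticGroup (Fin (m + 1)) F, g • ω = ω → ∃ l : F, g.1 *ᵥ x = l • x) :
    Fintype.card F ^ (2 * (m + 1)) - 1 ≤ (Fintype.card F - 1) * Fintype.card Ω := by
  choose gy hgy using fun y => MulAction.exists_smul_eq (Matrix.symplecticGroup (Fin (m + 1)) F) ω y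
  have hsub : ((Finset.univ : Finset (Vc F (m + 1))).erase 0) ⊆
      (((Finset.univ : Finset F).erase 0) ×ˢ (Finset.univ : Finset Ω)).image
        fun p => p.1 • (gy p.2).1 *ᵥ x := by
    intro v hv
    obtain ⟨g, hg⟩ := sp_transitive (m + 1) hx (Finset.ne_of_mem_erase hv)
    obtain ⟨l, hl⟩ := hfix ((gy (g • ω))⁻¹ * g) (by rw [mul_smul, inv_smul_eq_iff, hgy])
    rw [Submonoid.coe_mul, ← mulVec_mulVec, hg] at hl
    have hv' : v = l • (gy (g • ω)).1 *ᵥ x := by
      rw [← mulVec_smul, ← hl, mulVec_inv_cancel]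
    refine Finset.mem_image.2 ⟨(l, g • ω), Finset.mem_product.2 ⟨Finset.mem_erase.2 ⟨fun h => ?_,
      Finset.mem_univ _⟩, Finset.mem_univ _⟩, hv'.symm⟩
    rw [show l = 0 from h, zero_smul] at hv'
    exact Finset.ne_of_mem_erase hv hv'
  have := (Finset.card_le_card hsub).trans Finset.card_image_le
  rwa [Finset.card_erase_of_mem (Finset.mem_univ _), Finset.card_univ, card_Vc, Finset.card_product,
    Finset.card_erase_of_mem (Finset.mem_univ _), Finset.card_univ, Finset.card_univ] at this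

/-- The degree of an action in which a root group fixes a point. -/
theorem bound_of_root (hq : 3 ≤ Fintype.card F) (hm : 1 ≤ m) (hΩ : 2 ≤ Fintype.card Ω) (ω₀ : Ω)
    {a₀ : Vc F (m + 1)} (ha₀ : a₀ ∈ rootSet F m ω₀) :
    Fintype.card F ^ (2 * (m + 1)) - 1 ≤ (Fintype.card F - 1) * Fintype.card Ω := by
  set q := Fintype.card F with hqdef
  have key : ∀ ω : Ω, (rootSet F m ω).Nonempty →
      (rootSet F m ω).card ≤ (q - 1) * (fixedE F m Ω).card →
      q ^ (2 * (m + 1)) - 1 ≤ (q - 1) * Fintype.card Ω := by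
    intro ω hne hle
    have h := count_rootSet (F := F) (m := m) ω
    refine Nat.le_of_mul_le_mul_right ?_ (Finset.card_pos.2 hne)
    calc (q ^ (2 * (m + 1)) - 1) * (rootSet F m ω).card
        ≤ (q ^ (2 * (m + 1)) - 1) * ((q - 1) * (fixedE F m Ω).card) := Nat.mul_le_mul_left _ hle
      _ = (q - 1) * Fintype.card Ω * (rootSet F m ω).card := by
          rw [Nat.mul_left_comm, ← h, mul_assoc]
  by_cases hperp : ∀ y : Ω, ∀ a ∈ rootSet F m y, ∀ b ∈ rootSet F m y, stdB (m + 1) F a b = 0
  · obtain ⟨g, hg⟩ := sp_transitive (m + 1) (mem_rootSet.1 ha₀).1 (eVec_ne_zero (F := F) (m := m))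
    have he : eVec F m ∈ rootSet F m (g • ω₀) := by rw [← hg, rootSet_smul_mem]; exact ha₀
    exact key _ ⟨_, he⟩ (card_rootSet_isotropic _ he (hperp _))
  push Not at hperp
  obtain ⟨y, a, ha, b, hb, hab⟩ := hperp
  obtain ⟨g, hg⟩ := sp_transitive (m + 1) (mem_rootSet.1 ha).1 (eVec_ne_zero (F := F) (m := m))
  set ω := g • y with hωdef
  have he : eVec F m ∈ rootSet F m ω := by rw [hωdef, ← hg, rootSet_smul_mem]; exact ha
  obtain ⟨b', hb', hβ⟩ : ∃ b' ∈ rootSet F m ω, stdB (m + 1) F b' (eVec F m) ≠ 0 :=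
    ⟨g.1 *ᵥ b, (rootSet_smul_mem g y b).2 hb, by rw [← hg, sp_iso, bneg a b, neg_ne_zero]; exact hab⟩
  -- many fixed points
  have hf : q ^ (2 * m) ≤ (fixedE F m Ω).card := by
    by_cases hA : ∃ z ∈ fixedE F m Ω, ∃ x ∈ Ann F m z, x ≠ 0
    · obtain ⟨z, hz, x, hx, hx0⟩ := hA
      have hZ := eVec_mem_iff.1 (Finset.mem_filter.1 hz).2
      have h := card_family z hx0 {z} (by simp [mem_sameT])
        (fun r hr => by rw [Finset.mem_singleton] at hr; rw [hr]; exact hx)
        (fun r hr r' hr' h => absurd ((Finset.mem_singleton.1 hr).trans (Finset.mem_singleton.1 hr').symm) h)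
      rw [Finset.card_singleton, one_mul, hZ, AddSubgroup.card_top, Nat.card_eq_fintype_card,
        ← hqdef] at h
      have hsub : sameT F m z ⊆ fixedE F m Ω := fun r hr =>
        Finset.mem_filter.2 ⟨Finset.mem_univ _, eVec_mem_iff.2 ((mem_sameT.1 hr).1.trans hZ)⟩
      refine le_trans ?_ (Finset.card_le_card hsub)
      set A := (Ann F m z).card
      have hApos : 0 < A := Finset.card_pos.2 ⟨x, hx⟩
      set M := q ^ (2 * m) - 1 with hM
      have hqpos : 0 < q := by omega
      have h1 : M * A ≤ (sameT F m z).card * (A - 1) := by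
        refine Nat.le_of_mul_le_mul_right ?_ hqpos
        calc M * A * q = M * (q * A) := by ring
          _ ≤ _ := h
      by_contra hlt
      have h2 : (sameT F m z).card ≤ M := by omega
      have h3 := h1.trans (Nat.mul_le_mul_right (A - 1) h2)
      have hMpos : 0 < M := by
        have : 1 < q ^ (2 * m) := Nat.one_lt_pow (by omega) (by omega)
        omega
      have := Nat.le_of_mul_le_mul_left h3 hMpos
      omega
    · exfalso
      push Not at hA
      obtain ⟨c₀, hc₀0, hc₀⟩ := not_all_roots (F := F) (m := m) hΩ ω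
      refine hc₀ ?_
      have hW : ∀ w : Vc F m, ∀ c : F, rho w c • ω = ω := by
        intro w c
        obtain ⟨c', hc'⟩ : ∃ c', rho w c' • ω = ω := mem_Wst.1 ((mem_Wst_iff ω w).2 fun v hv => by
          rw [hA ω (Finset.mem_filter.2 ⟨Finset.mem_univ _, he⟩) v hv]; simp)
        rw [show c = (c - c') + c' by ring, ← rho_central_mul, mul_smul, hc']
        exact mem_Z0.1 (eVec_mem_iff.1 he ▸ AddSubgroup.mem_top _)
      have hopp : ∀ x : Vc F (m + 1), stdB (m + 1) F x (eVec F m) ≠ 0 → x ∈ rootSet F m ω := by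
        intro x hxe
        rw [B_e] at hxe hβ
        set l := x (.inr 0) / b' (.inr 0) with hl
        have hl0 : l ≠ 0 := div_ne_zero hxe hβ
        have hbl := rootSet_scale hb' hl0
        set b1 := l • b' with hb1
        have hb1r : b1 (.inr 0) = x (.inr 0) := by
          rw [hb1, Pi.smul_apply, smul_eq_mul, hl, div_mul_cancel₀ _ hβ]
        set w := (x (.inr 0))⁻¹ • (down x - down b1) with hw
        set c := (x (.inl 0) - b1 (.inl 0) - stdB m F (down b1) w) / x (.inr 0) with hc
        have hmem := rootSet_stab (hW w c) hbl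
        convert hmem using 1
        rw [rho_mulVec, hb1r]
        have hxw : x (.inr 0) • up w = up (down x) - up (down b1) := by
          rw [hw, ← up_smul, smul_smul, mul_inv_cancel₀ hxe, one_smul, eq_sub_iff_add_eq, ← up_add,
            sub_add_cancel]
        rw [hxw, show c * x (.inr 0) + stdB m F (down b1) w = x (.inl 0) - b1 (.inl 0) by
          rw [hc, div_mul_cancel₀ _ hxe]; ring]
        have hbd := decomp b1
        rw [hb1r] at hbd
        linear_combination (norm := module) decomp x - hbd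
      by_cases h0 : stdB (m + 1) F c₀ (eVec F m) = 0
      · obtain ⟨p, hp⟩ := exists_pairing_one (stdB_nondegenerate (m + 1) (F := F))
          (eVec_ne_zero (F := F) (m := m))
        obtain ⟨r, hr⟩ := exists_pairing_one (stdB_nondegenerate (m + 1) (F := F)) hc₀0
        have hpe : stdB (m + 1) F p (eVec F m) ≠ 0 := by rw [bneg (eVec F m) p, hp]; simp
        obtain ⟨z, hze, hzc⟩ : ∃ z, stdB (m + 1) F z (eVec F m) ≠ 0 ∧ stdB (m + 1) F c₀ z ≠ 0 := by
          by_cases h1 : stdB (m + 1) F c₀ p = 0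
          · by_cases h2 : stdB (m + 1) F r (eVec F m) = 0
            · exact ⟨p + r, by rwa [map_add, LinearMap.add_apply, h2, add_zero],
                by rw [map_add, h1, hr, zero_add]; exact one_ne_zero⟩
            · exact ⟨r, h2, by rw [hr]; exact one_ne_zero⟩
          · exact ⟨p, hpe, h1⟩
        have h3 : c₀ + z ∈ rootSet F m ω := hopp _ (by rwa [map_add, LinearMap.add_apply, h0, zero_add])
        have h4 := rootSet_plane (hopp z hze) h3 (by
          rwa [map_add, LinearMap.add_apply, bself, add_zero]) (-1)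
        rwa [neg_one_smul, neg_add_cancel_comm_assoc] at h4
      · exact hopp c₀ h0
  by_cases hspan : Submodule.span F (rootSet F m ω : Set (Vc F (m + 1))) = ⊤
  swap
  · set U := Submodule.span F (rootSet F m ω : Set (Vc F (m + 1))) with hU
    by_cases hd : finrank F U ≤ 2 * m
    · refine key ω ⟨_, he⟩ ?_
      refine (card_le_sub (U := U) fun a ha => ⟨(mem_rootSet.1 ha).1, Submodule.subset_span ha⟩).trans ?_
      calc q ^ finrank F U - 1 ≤ q ^ finrank F U := Nat.sub_le _ _
        _ ≤ q ^ (2 * m) := Nat.pow_le_pow_right (by omega) hd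
        _ ≤ 1 * (fixedE F m Ω).card := by rw [one_mul]; exact hf
        _ ≤ _ := Nat.mul_le_mul_right _ (by omega)
    · set P := LinearMap.BilinForm.orthogonal (stdB (m + 1) F) U with hPdef
      have h2 : finrank F P + finrank F U = 2 * (m + 1) := finrank_orth U
      have hlt := Submodule.finrank_lt hspan
      rw [finrank_Vc] at hlt
      have hP1 : finrank F P = 1 := by omega
      obtain ⟨⟨x, hxP⟩, hx0, hxall⟩ := finrank_eq_one_iff'.1 hP1
      refine bound_of_line ω (x := x) (fun h => hx0 (Subtype.ext h)) fun g hg => ?_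
      have hgx : g.1 *ᵥ x ∈ P := by
        rw [hPdef, mem_orth]
        intro u hu
        induction hu using Submodule.span_induction with
        | mem a ha =>
          have h3 := mem_orth.1 hxP ((g⁻¹).1 *ᵥ a)
            (Submodule.subset_span (rootSet_stab (inv_smul_eq_iff.2 hg.symm) ha))
          rwa [← sp_iso (m + 1) g, mulVec_inv_cancel] at h3
        | zero => simp
        | add a c _ _ ha hc => rw [map_add, LinearMap.add_apply, ha, hc, add_zero]
        | smul l a _ ha => rw [map_smul, LinearMap.smul_apply, ha, smul_zero]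
      obtain ⟨l, hl⟩ := hxall ⟨_, hgx⟩
      exact ⟨l, (congrArg Subtype.val hl).symm⟩
  · refine key ω ⟨_, he⟩ ?_
    set Good : Submodule F (Vc F (m + 1)) → Prop := fun U =>
      U ⊓ LinearMap.BilinForm.orthogonal (stdB (m + 1) F) U = ⊥ ∧
        ∀ x ∈ U, x ≠ 0 → x ∈ rootSet F m ω with hGood
    have h0 : Good (Submodule.span F {eVec F m, b'}) := by
      refine ⟨?_, fun x hx hx0 => ?_⟩
      · rw [Submodule.eq_bot_iff]
        rintro x ⟨hx, hxo⟩
        obtain ⟨α, β, rfl⟩ := Submodule.mem_span_pair.1 hx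
        have h1 := mem_orth.1 hxo (eVec F m) (Submodule.subset_span (by simp))
        have h2 := mem_orth.1 hxo b' (Submodule.subset_span (by simp))
        simp only [map_add, map_smul, bself, smul_eq_mul, mul_zero, zero_add, add_zero] at h1 h2
        rw [bneg b' (eVec F m)] at h1
        rw [(mul_eq_zero.1 h1).resolve_right (neg_ne_zero.2 hβ), (mul_eq_zero.1 h2).resolve_right hβ,
          zero_smul, zero_smul, add_zero]
      · obtain ⟨α, β, rfl⟩ := Submodule.mem_span_pair.1 hx
        rcases eq_or_ne β 0 with rfl | hβ0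
        · rw [zero_smul, add_zero] at hx0 ⊢
          exact rootSet_scale he (fun h => hx0 (by rw [h, zero_smul]))
        · refine rootSet_plane he (rootSet_scale hb' hβ0) ?_ α
          rw [map_smul, LinearMap.smul_apply]
          exact smul_ne_zero hβ0 hβ
    haveI : Finite (Submodule F (Vc F (m + 1))) := Finite.of_injective _ SetLike.coe_injective
    obtain ⟨U, hle, hUgood, hmax⟩ := Finite.exists_le_maximal (p := Good) h0
    have hU2 : 2 ≤ finrank F U := by
      by_contra h2
      have h3 : finrank F U ≤ 1 := by omega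
      obtain ⟨⟨w, hw⟩, hwall⟩ := finrank_le_one_iff.1 h3
      obtain ⟨c1, hc1⟩ := hwall ⟨_, hle (Submodule.subset_span (by simp : eVec F m ∈ ({eVec F m, b'} : Set _)))⟩
      obtain ⟨c2, hc2⟩ := hwall ⟨_, hle (Submodule.subset_span (by simp : b' ∈ ({eVec F m, b'} : Set _)))⟩
      have h4 : eVec F m = c1 • w := (congrArg Subtype.val hc1).symm
      have h5 : b' = c2 • w := (congrArg Subtype.val hc2).symm
      apply hβ
      rw [h4, h5]
      simp [bself]
    set P := LinearMap.BilinForm.orthogonal (stdB (m + 1) F) U with hPdef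
    have h2 : finrank F P + finrank F U = 2 * (m + 1) := finrank_orth U
    have hcover : ∀ x ∈ rootSet F m ω, x ∈ U ∨ x ∈ P := by
      intro x hx
      obtain ⟨u, hu, v, hv, rfl⟩ := exists_split hUgood.1 x
      rcases eq_or_ne u 0 with rfl | hu0
      · exact Or.inr (by rwa [zero_add])
      rcases eq_or_ne v 0 with rfl | hv0
      · exact Or.inl (by rwa [add_zero])
      obtain ⟨U', h1, h3, h4⟩ := exists_larger hq ω hspan hUgood.1 hUgood.2 hu hu0 hv hv0 hx
      exact absurd (hmax ⟨h1, h3⟩ h4.le) (not_le_of_gt h4)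
    have hUlt : finrank F U < 2 * (m + 1) := by
      have h3 := Submodule.finrank_le U
      rw [finrank_Vc] at h3
      rcases lt_or_eq_of_le h3 with h | h
      · exact h
      · obtain ⟨c₀, hc0, hc⟩ := not_all_roots (F := F) (m := m) hΩ ω
        refine absurd (hUgood.2 c₀ ?_ hc0) hc
        rw [Submodule.eq_top_of_finrank_eq (h.trans finrank_Vc.symm)]; trivial
    have hU2m : finrank F U ≤ 2 * m := by
      by_contra h
      have hP1 : finrank F P = 1 := by omega
      obtain ⟨⟨x, hxP⟩, hx0, hxall⟩ := finrank_eq_one_iff'.1 hP1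
      refine hx0 (Subtype.ext ((Submodule.mem_bot F).1 (hUgood.1 ▸ ⟨?_, hxP⟩)))
      obtain ⟨u, hu, v, hv, hx⟩ := exists_split hUgood.1 x
      obtain ⟨t, ht⟩ := exists_pairing_one (stdB_nondegenerate (m + 1) (F := F))
        (fun h => hx0 (Subtype.ext h) : x ≠ 0)
      obtain ⟨tu, htu, tv, htv, rfl⟩ := exists_split hUgood.1 t
      obtain ⟨l, hl⟩ := hxall ⟨tv, htv⟩
      have hl' : l • x = tv := congrArg Subtype.val hl
      rw [map_add, bneg tu x, mem_orth.1 hxP tu htu, neg_zero, zero_add, ← hl', map_smul, bself,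
        smul_zero] at ht
      exact absurd ht zero_ne_one
    have hc1 : (rootSet F m ω).card ≤
        ((rootSet F m ω).filter fun a => a ∈ U).card + ((rootSet F m ω).filter fun a => a ∈ P).card := by
      refine le_trans (Finset.card_le_card fun a ha => ?_) (Finset.card_union_le _ _)
      rcases hcover a ha with h | h
      · exact Finset.mem_union_left _ (Finset.mem_filter.2 ⟨ha, h⟩)
      · exact Finset.mem_union_right _ (Finset.mem_filter.2 ⟨ha, h⟩)
    refine hc1.trans ?_
    calc _ ≤ (q ^ finrank F U - 1) + (q ^ finrank F P - 1) := by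
          refine Nat.add_le_add
            (card_le_sub fun a ha => ⟨(mem_rootSet.1 (Finset.mem_filter.1 ha).1).1, (Finset.mem_filter.1 ha).2⟩)
            (card_le_sub fun a ha => ⟨(mem_rootSet.1 (Finset.mem_filter.1 ha).1).1, (Finset.mem_filter.1 ha).2⟩)
      _ ≤ q ^ (2 * m) + q ^ (2 * m) := by
          refine Nat.add_le_add ((Nat.sub_le _ _).trans (Nat.pow_le_pow_right (by omega) hU2m))
            ((Nat.sub_le _ _).trans (Nat.pow_le_pow_right (by omega) (by omega)))
      _ ≤ 2 * (fixedE F m Ω).card := by omega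
      _ ≤ _ := Nat.mul_le_mul_right _ (by omega)

end Cfsg.Agent.Lib.MinIndexSp
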