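import Cfsg.Agent.Lib.MinIndexSp.FreeBound
import Cfsg.Agent.Lib.MinIndexSp.Roots

/-!
The minimal index of a proper subgroup of the projective symplectic groups over fields with at
least three elements.
-/

set_option autoImplicit false

namespace Cfsg.Agent.Lib.MinIndexSp

open Matrix Module Cfsg.Agent.Lib.Forms Cfsg.Agent.Lib.Classical
open Cfsg.Agent.Lib.MinDegForms.SpEven (Vc up down eVec fVec)

universe u v

attribute [local instance] _root_.Classical.propDecidable

variable {F : Type u} [Field F] [Fintype F]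

/-- A transitive action on at least two points is at least as large as the action on lines. -/
theorem card_bound {m : ℕ} (hq : 3 ≤ Fintype.card F) (hm : 1 ≤ m)
    (hex : ¬ (m = 1 ∧ Fintype.card F = 3)) {Ω : Type v} [Fintype Ω]
    [MulAction (Matrix.symplecticGroup (Fin (m + 1)) F) Ω]
    [MulAction.IsPretransitive (Matrix.symplecticGroup (Fin (m + 1)) F) Ω]
    (hΩ : 2 ≤ Fintype.card Ω) :
    Fintype.card F ^ (2 * (m + 1)) - 1 ≤ (Fintype.card F - 1) * Fintype.card Ω := by
  haveI : Nonempty Ω := Fintype.card_pos_iff.1 (by omega)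
  by_cases hfree : NoRoot F m Ω
  · exact bound_of_free hq hm hex hfree
  · unfold NoRoot at hfree
    push Not at hfree
    obtain ⟨y, a, ha, hfix⟩ := hfree
    exact bound_of_root hq hm hΩ y (mem_rootSet.2 ⟨ha, hfix⟩)

/-- The lines. -/
noncomputable def lineOf {n : ℕ} (v : Vc F n) : Set (Vc F n) := {w | ∃ l : F, w = l • v}

theorem exists_index {n : ℕ} (hn : 1 ≤ n) : ∃ H : Subgroup (Matrix.symplecticGroup (Fin n) F),
    Subgroup.center (Matrix.symplecticGroup (Fin n) F) ≤ H ∧
      H.index * (Fintype.card F - 1) = Fintype.card F ^ (2 * n) - 1 := by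
  let G := Matrix.symplecticGroup (Fin n) F
  set x : Vc F n := Pi.single (.inl ⟨0, hn⟩) 1 with hxdef
  have hx : x ≠ 0 := by simp [hxdef]
  letI act : MulAction G (Set (Vc F n)) :=
    { smul := fun g S => (fun v => g.1 *ᵥ v) '' S
      one_smul := fun S => by
        show (fun v => (1 : G).1 *ᵥ v) '' S = S
        simp
      mul_smul := fun g h S => by
        show (fun v => (g * h).1 *ᵥ v) '' S = (fun v => g.1 *ᵥ v) '' ((fun v => h.1 *ᵥ v) '' S)
        simp [Set.image_image, mulVec_mulVec] }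
  have hact : ∀ (g : G) (v : Vc F n), g • lineOf v = lineOf (g.1 *ᵥ v) := fun g v => by
    show (fun w => g.1 *ᵥ w) '' lineOf v = lineOf (g.1 *ᵥ v)
    ext w
    constructor
    · rintro ⟨u, ⟨l, rfl⟩, rfl⟩
      exact ⟨l, mulVec_smul _ _ _⟩
    · rintro ⟨l, rfl⟩
      exact ⟨l • v, ⟨l, rfl⟩, mulVec_smul _ _ _⟩
  refine ⟨MulAction.stabilizer G (lineOf x), fun g hg => ?_, ?_⟩
  · rw [MulAction.mem_stabilizer_iff, hact]
    have h : spT n (g.1 *ᵥ x) 1 = spT n x 1 := by
      rw [← spT_conj, ← (Subgroup.mem_center_iff.1 hg), mul_inv_cancel_right]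
    obtain ⟨w, hw⟩ := exists_pairing_one (stdB_nondegenerate n (F := F)) hx
    have h2 : (spT n (g.1 *ᵥ x) 1).1 *ᵥ w = (spT n x 1).1 *ᵥ w := by rw [h]
    rw [spT_mulVec, spT_mulVec, one_mul, one_mul] at h2
    have h3 := add_left_cancel h2
    have hwx : stdB n F w x ≠ 0 := by rw [bneg x w, hw]; simp
    have hb : stdB n F w (g.1 *ᵥ x) ≠ 0 := fun h0 => by
      rw [h0, zero_smul] at h3
      exact smul_ne_zero hwx hx h3.symm
    have hgx : g.1 *ᵥ x = ((stdB n F w (g.1 *ᵥ x))⁻¹ * stdB n F w x) • x := by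
      rw [← smul_smul, ← h3, smul_smul, inv_mul_cancel₀ hb, one_smul]
    have hl : (stdB n F w (g.1 *ᵥ x))⁻¹ * stdB n F w x ≠ 0 := mul_ne_zero (inv_ne_zero hb) hwx
    obtain ⟨k, hk, hgx⟩ : ∃ k : F, k ≠ 0 ∧ g.1 *ᵥ x = k • x := ⟨_, hl, hgx⟩
    rw [hgx]
    ext y
    constructor
    · rintro ⟨l, rfl⟩
      exact ⟨l * k, by rw [smul_smul]⟩
    · rintro ⟨l, rfl⟩
      exact ⟨l * k⁻¹, by rw [smul_smul, mul_assoc, inv_mul_cancel₀ hk, mul_one]⟩
  · rw [MulAction.index_stabilizer]
    set O : Finset (Set (Vc F n)) :=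
      ((Finset.univ : Finset (Vc F n)).erase 0).image lineOf with hO
    have horb : MulAction.orbit G (lineOf x) = (O : Set (Set (Vc F n))) := by
      ext S
      simp only [MulAction.mem_orbit_iff, hO, Finset.coe_image, Finset.coe_erase, Finset.coe_univ,
        Set.mem_image, Set.mem_diff, Set.mem_univ, true_and, Set.mem_singleton_iff]
      constructor
      · rintro ⟨g, rfl⟩
        refine ⟨g.1 *ᵥ x, fun h => hx ?_, (hact g x).symm⟩
        have h' : (g⁻¹).1 *ᵥ (g.1 *ᵥ x) = (g⁻¹).1 *ᵥ 0 := by rw [h]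
        rwa [mulVec_mulVec, ← Submonoid.coe_mul, inv_mul_cancel, OneMemClass.coe_one, one_mulVec,
          mulVec_zero] at h'
      · rintro ⟨v, hv, rfl⟩
        obtain ⟨g, hg⟩ := sp_transitive n hx hv
        exact ⟨g, by rw [hact, hg]⟩
    rw [horb, Set.ncard_coe_finset]
    have hfib : ∀ S ∈ O, (((Finset.univ : Finset (Vc F n)).erase 0).filter fun v => lineOf v = S).card =
        Fintype.card F - 1 := by
      intro S hS
      obtain ⟨v, hv, rfl⟩ := Finset.mem_image.1 hS
      have hv0 := Finset.ne_of_mem_erase hv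
      rw [← Finset.card_univ (α := F), ← Finset.card_erase_of_mem (Finset.mem_univ (0 : F))]
      symm
      refine Finset.card_bij (fun l _ => l • v) (fun l hl => ?_)
        (fun l _ l' _ h => smul_left_injective F hv0 h) (fun w hw => ?_)
      · have hl0 := Finset.ne_of_mem_erase hl
        refine Finset.mem_filter.2 ⟨Finset.mem_erase.2 ⟨smul_ne_zero hl0 hv0, Finset.mem_univ _⟩, ?_⟩
        ext y
        constructor
        · rintro ⟨k, rfl⟩; exact ⟨k * l, by rw [smul_smul]⟩
        · rintro ⟨k, rfl⟩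
          exact ⟨k * l⁻¹, by rw [smul_smul, mul_assoc, inv_mul_cancel₀ hl0, mul_one]⟩
      · obtain ⟨hw1, hw2⟩ := Finset.mem_filter.1 hw
        obtain ⟨l, hl⟩ : w ∈ lineOf v := by rw [← hw2]; exact ⟨1, (one_smul F w).symm⟩
        exact ⟨l, Finset.mem_erase.2 ⟨fun h => Finset.ne_of_mem_erase hw1 (by rw [hl, h, zero_smul]),
          Finset.mem_univ _⟩, hl.symm⟩
    rw [← smul_eq_mul, ← Finset.sum_const, ← Finset.sum_congr rfl hfib,
      ← Finset.card_eq_sum_card_image, Finset.card_erase_of_mem (Finset.mem_univ _), Finset.card_univ,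
      card_Vc]

theorem min_index {q n : ℕ} (hF : Fintype.card F = q) (hn : 2 ≤ n) (hq : 3 ≤ q)
    (hexc : ¬ (n = 2 ∧ q = 3)) :
    (∀ H : Subgroup (Cfsg.PSp n F), H ≠ ⊤ → (q ^ (2 * n) - 1) / (q - 1) ≤ H.index) ∧
      ∃ H : Subgroup (Cfsg.PSp n F), H.index = (q ^ (2 * n) - 1) / (q - 1) := by
  subst hF
  set π := QuotientGroup.mk' (Subgroup.center (Matrix.symplecticGroup (Fin n) F)) with hπ
  have hs : Function.Surjective π := QuotientGroup.mk'_surjective _
  refine ⟨fun H hH => ?_, ?_⟩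
  · obtain ⟨m, rfl⟩ : ∃ m, n = m + 1 := ⟨n - 1, by omega⟩
    rw [← H.index_comap_of_surjective hs, Subgroup.index_eq_card]
    set K := H.comap π with hK
    haveI : Fintype (Matrix.symplecticGroup (Fin (m + 1)) F ⧸ K) := Fintype.ofFinite _
    have hK1 : K ≠ ⊤ := fun e => hH (Subgroup.comap_injective hs (by rw [Subgroup.comap_top]; exact e))
    have h2 : 2 ≤ Fintype.card (Matrix.symplecticGroup (Fin (m + 1)) F ⧸ K) := by
      have h0 : K.index ≠ 1 := fun e => hK1 (Subgroup.index_eq_one.1 e)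
      have h1 := Fintype.card_pos (α := Matrix.symplecticGroup (Fin (m + 1)) F ⧸ K)
      rw [Subgroup.index_eq_card, Nat.card_eq_fintype_card] at h0
      omega
    rw [Nat.card_eq_fintype_card, Nat.div_le_iff_le_mul_add_pred (by omega)]
    have := card_bound (m := m) hq (by omega) (fun h => hexc ⟨by omega, h.2⟩) h2
    exact le_trans this (Nat.le_add_right _ _)
  · obtain ⟨H, hle, hH⟩ := exists_index (F := F) (by omega : 1 ≤ n)
    refine ⟨H.map π, ?_⟩
    rw [← hH, Nat.mul_div_cancel _ (by omega)]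
    refine Subgroup.index_map_eq _ hs ?_
    rw [hπ, QuotientGroup.ker_mk']
    exact hle

end Cfsg.Agent.Lib.MinIndexSp
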