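import Cfsg.Agent.Lib.MinIndexSp.Radical

/-!
Orbits of the radical of a point stabiliser in a permutation action.
-/

set_option autoImplicit false

namespace Cfsg.Agent.Lib.MinIndexSp

open Matrix Module Cfsg.Agent.Lib.Forms Cfsg.Agent.Lib.Classical
open Cfsg.Agent.Lib.MinDegForms.SpEven (Vc up down eVec fVec decomp down_add down_smul down_up down_eVec up_add up_smul up_zero mkSp mkSp_mulVec)

universe u v

attribute [local instance] _root_.Classical.propDecidable

variable {F : Type u} [Field F] [Fintype F] {n m : ℕ}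

/-- A primitive additive character. -/
noncomputable def psi (F : Type u) [Field F] [Fintype F] : AddChar F ℂ :=
  AddChar.FiniteField.primitiveChar_to_Complex F

theorem psi_primitive : (psi F).IsPrimitive :=
  AddChar.FiniteField.primitiveChar_to_Complex_isPrimitive F

theorem eq_zero_of_psi {b : F} (h : ∀ l : F, psi F (l * b) = 1) : b = 0 := by
  by_contra hb
  exact psi_primitive hb (DFunLike.ext _ _ fun l => by
    rw [AddChar.mulShift_apply, AddChar.one_apply, mul_comm, h])

/-- The character of a vector. -/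
noncomputable def chrV (v : Vc F n) : AddChar (Vc F n) ℂ :=
  (psi F).compAddMonoidHom (stdB n F v).toAddMonoidHom

theorem chrV_apply (v w : Vc F n) : chrV v w = psi F (stdB n F v w) := rfl

theorem chrV_injective : Function.Injective (chrV : Vc F n → AddChar (Vc F n) ℂ) := by
  intro v v' h
  by_contra hne
  obtain ⟨w, hw⟩ := exists_pairing_one (stdB_nondegenerate n (F := F)) (sub_ne_zero.2 hne)
  refine one_ne_zero (α := F) (eq_zero_of_psi fun l => ?_)
  rw [mul_one]
  have h2 := DFunLike.congr_fun h (l • w)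
  rw [chrV_apply, chrV_apply] at h2
  have e : stdB n F v (l • w) = l + stdB n F v' (l • w) := by
    rw [map_sub, LinearMap.sub_apply] at hw
    simp only [map_smul, smul_eq_mul]
    linear_combination l * hw
  rw [e, AddChar.map_add_eq_mul] at h2
  have hne0 : psi F (stdB n F v' (l • w)) ≠ 0 := by
    intro h0
    have := (psi F).map_add_eq_mul (stdB n F v' (l • w)) (-(stdB n F v' (l • w)))
    rw [add_neg_cancel, AddChar.map_zero_eq_one, h0, zero_mul] at this
    exact one_ne_zero this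
  exact (mul_eq_right₀ hne0).1 h2

variable {Ω : Type v} [MulAction (Matrix.symplecticGroup (Fin (m + 1)) F) Ω]

variable (m F) in
/-- The part of the centre fixing a point. -/
noncomputable def Z0 (ω : Ω) : AddSubgroup F where
  carrier := {c : F | rho (0 : Vc F m) c • ω = ω}
  add_mem' := by
    intro c d hc hd
    simp only [Set.mem_setOf_eq] at hc hd ⊢
    rw [← rho_central_mul, mul_smul, hd, hc]
  zero_mem' := by simp [rho_zero]
  neg_mem' := by
    intro c hc
    simp only [Set.mem_setOf_eq] at hc ⊢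
    have h := rho_inv (0 : Vc F m) c
    rw [neg_zero] at h
    rw [← h, inv_smul_eq_iff, hc]

variable (m F) in
/-- The projection of the stabiliser. -/
noncomputable def Wst (ω : Ω) : AddSubgroup (Vc F m) where
  carrier := {w : Vc F m | ∃ c : F, rho w c • ω = ω}
  add_mem' := by
    intro w w' hw hw'
    obtain ⟨c, hc⟩ := hw
    obtain ⟨c', hc'⟩ := hw'
    exact ⟨c + c' + stdB m F w' w, by rw [← rho_mul, mul_smul, hc', hc]⟩
  zero_mem' := ⟨0, by simp [rho_zero]⟩
  neg_mem' := by
    intro w hw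
    obtain ⟨c, hc⟩ := hw
    exact ⟨-c, by rw [← rho_inv, inv_smul_eq_iff, hc]⟩

theorem mem_Z0 {ω : Ω} {c : F} : c ∈ Z0 F m ω ↔ rho (0 : Vc F m) c • ω = ω := Iff.rfl

theorem mem_Wst {ω : Ω} {w : Vc F m} : w ∈ Wst F m ω ↔ ∃ c : F, rho w c • ω = ω := Iff.rfl

variable (m F) in
/-- The annihilator of the projection of the stabiliser. -/
noncomputable def Ann (ω : Ω) : Finset (Vc F m) := perp chrV (Wst F m ω)

theorem mem_Ann {ω : Ω} {v : Vc F m} :
    v ∈ Ann F m ω ↔ ∀ w ∈ Wst F m ω, psi F (stdB m F v w) = 1 := mem_perp _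

theorem zero_mem_Ann (ω : Ω) : (0 : Vc F m) ∈ Ann F m ω :=
  mem_Ann.2 fun w _ => by simp

theorem card_Vc : Fintype.card (Vc F n) = Fintype.card F ^ (2 * n) := by
  rw [Fintype.card_fun, Fintype.card_sum, Fintype.card_fin, two_mul]

variable (m F) in
/-- The orbit under the radical. -/
noncomputable def orb (ω : Ω) : Finset Ω :=
  (Finset.univ : Finset (Vc F m × F)).image fun p => rho p.1 p.2 • ω

theorem self_mem_orb (ω : Ω) : ω ∈ orb F m ω :=
  Finset.mem_image.2 ⟨(0, 0), Finset.mem_univ _, by simp [rho_zero]⟩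

theorem mem_orb {ω y : Ω} : y ∈ orb F m ω ↔ ∃ w c, rho (F := F) (m := m) w c • ω = y := by
  simp [orb]

theorem mem_orb_of_inter {a b y : Ω} (ha : y ∈ orb F m a) (hb : y ∈ orb F m b) :
    b ∈ orb F m a := by
  obtain ⟨w, c, rfl⟩ := mem_orb.1 ha
  obtain ⟨w', c', h⟩ := mem_orb.1 hb
  refine mem_orb.2 ⟨-w' + w, -c' + c + stdB m F w (-w'), ?_⟩
  rw [← rho_mul, mul_smul, ← h, ← rho_inv, inv_smul_smul]

theorem card_orb (ω : Ω) :
    (orb F m ω).card * Nat.card (Z0 F m ω) = Fintype.card F * (Ann F m ω).card := by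
  set S := Finset.univ.filter fun p : Vc F m × F => rho p.1 p.2 • ω = ω with hS
  have horb : (orb F m ω).card * S.card = Fintype.card F ^ (2 * m) * Fintype.card F := by
    have h1 := Finset.card_eq_sum_card_image (fun p : Vc F m × F => rho p.1 p.2 • ω) Finset.univ
    have h2 : ∀ y ∈ orb F m ω,
        (Finset.univ.filter fun p : Vc F m × F => rho p.1 p.2 • ω = y).card = S.card := by
      intro y hy
      obtain ⟨w0, c0, rfl⟩ := mem_orb.1 hy
      refine (Finset.card_bij
        (fun (p : Vc F m × F) _ => (w0 + p.1, c0 + p.2 + stdB m F p.1 w0)) ?_ ?_ ?_).symm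
      · intro p hp
        refine Finset.mem_filter.2 ⟨Finset.mem_univ _, ?_⟩
        rw [← rho_mul, mul_smul, (Finset.mem_filter.1 hp).2]
      · intro p _ p' _ h
        simp only [Prod.mk.injEq] at h
        have e : p.1 = p'.1 := add_left_cancel h.1
        refine Prod.ext e ?_
        rw [e] at h
        exact add_left_cancel (add_right_cancel h.2)
      · intro p hp
        have hp2 := (Finset.mem_filter.1 hp).2
        refine ⟨(p.1 - w0, p.2 - c0 - stdB m F (p.1 - w0) w0), Finset.mem_filter.2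
          ⟨Finset.mem_univ _, ?_⟩, Prod.ext (by simp) (by simp only; ring)⟩
        refine smul_left_cancel (rho w0 c0) ?_
        rw [← mul_smul, rho_mul]
        convert hp2 using 3
        · simp
        · ring
    rw [← orb, Finset.sum_congr rfl h2, Finset.sum_const, smul_eq_mul, Finset.card_univ,
      Fintype.card_prod, card_Vc] at h1
    exact h1.symm
  have hfib : S.card = Nat.card (Wst F m ω) * Nat.card (Z0 F m ω) := by
    set WF := Finset.univ.filter fun w : Vc F m => w ∈ Wst F m ω with hWF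
    set ZF := Finset.univ.filter fun c : F => c ∈ Z0 F m ω with hZF
    have hW : Nat.card (Wst F m ω) = WF.card := by
      rw [← SetLike.coe_sort_coe, Nat.card_coe_set_eq, ← Set.ncard_coe_finset]
      congr 1; ext w; simp [hWF]
    have hZ : Nat.card (Z0 F m ω) = ZF.card := by
      rw [← SetLike.coe_sort_coe, Nat.card_coe_set_eq, ← Set.ncard_coe_finset]
      congr 1; ext c; simp [hZF]
    rw [hW, hZ, Finset.card_eq_sum_card_fiberwise (f := Prod.fst) (t := WF) (s := S) (fun p hp =>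
      Finset.mem_filter.2 ⟨Finset.mem_univ _, ⟨p.2, (Finset.mem_filter.1 hp).2⟩⟩),
      Finset.sum_const_nat (m := ZF.card)]
    intro w hw
    obtain ⟨c0, hc0⟩ := (Finset.mem_filter.1 hw).2
    refine (Finset.card_bij (fun c _ => (w, c0 + c)) ?_ ?_ ?_).symm
    · intro c hc
      refine Finset.mem_filter.2 ⟨Finset.mem_filter.2 ⟨Finset.mem_univ _, ?_⟩, rfl⟩
      show rho w (c0 + c) • ω = ω
      rw [← rho_mul_central, mul_smul, (mem_Z0.1 (Finset.mem_filter.1 hc).2), hc0]
    · intro c _ c' _ h; simpa using h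
    · intro p hp
      obtain ⟨hp1, hp2⟩ := Finset.mem_filter.1 hp
      obtain ⟨-, hp1⟩ := Finset.mem_filter.1 hp1
      subst hp2
      refine ⟨p.2 - c0, Finset.mem_filter.2 ⟨Finset.mem_univ _, mem_Z0.2 ?_⟩, by simp⟩
      refine smul_left_cancel (rho p.1 c0) ?_
      rw [← mul_smul, rho_mul_central, hc0, add_sub_cancel, hp1]
  have hperp := card_perp chrV chrV_injective (Wst F m ω)
  rw [card_Vc] at hperp
  rw [hfib, ← hperp] at horb
  refine Nat.eq_of_mul_eq_mul_right (Nat.card_pos (α := Wst F m ω)) ?_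
  calc _ = (orb F m ω).card * (Nat.card (Wst F m ω) * Nat.card (Z0 F m ω)) := by ring
    _ = _ := by rw [horb, Ann]; ring

theorem Z0_rho (w : Vc F m) (c : F) (ω : Ω) : Z0 F m (rho (F := F) w c • ω) = Z0 F m ω := by
  ext d
  rw [mem_Z0, mem_Z0, ← mul_smul, rho_central_mul, add_comm d c, ← rho_mul_central, mul_smul,
    smul_left_cancel_iff]

theorem Wst_rho (w : Vc F m) (c : F) (ω : Ω) : Wst F m (rho (F := F) w c • ω) = Wst F m ω := by
  ext x
  rw [mem_Wst, mem_Wst]
  constructor
  · rintro ⟨d, hd⟩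
    refine ⟨d + stdB m F w x - stdB m F x w, smul_left_cancel (rho w c) ?_⟩
    rw [← mul_smul, rho_mul]
    rw [← mul_smul, rho_mul] at hd
    convert hd using 3 <;> [abel; abel]
  · rintro ⟨d, hd⟩
    refine ⟨d + stdB m F x w - stdB m F w x, ?_⟩
    rw [← mul_smul, rho_mul]
    conv_rhs => rw [← hd, ← mul_smul, rho_mul]
    congr 2 <;> abel

theorem Ann_rho (w : Vc F m) (c : F) (ω : Ω) : Ann F m (rho (F := F) w c • ω) = Ann F m ω := by
  rw [Ann, Wst_rho]; rfl

theorem Z0_emb (g : Matrix.symplecticGroup (Fin m) F) (ω : Ω) :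
    Z0 F m (emb g • ω) = Z0 F m ω := by
  ext d
  rw [mem_Z0, mem_Z0, ← mul_smul]
  conv_lhs => rw [show (0 : Vc F m) = g.1 *ᵥ 0 by rw [mulVec_zero], ← emb_rho, mul_smul,
    smul_left_cancel_iff]

theorem mem_Wst_emb (g : Matrix.symplecticGroup (Fin m) F) (ω : Ω) (w : Vc F m) :
    g.1 *ᵥ w ∈ Wst F m (emb g • ω) ↔ w ∈ Wst F m ω := by
  refine exists_congr fun c => ?_
  rw [← mul_smul, ← emb_rho, mul_smul, smul_left_cancel_iff]

theorem mulVec_inv_cancel (g : Matrix.symplecticGroup (Fin n) F) (w : Vc F n) :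
    g.1 *ᵥ (g⁻¹).1 *ᵥ w = w := by
  rw [mulVec_mulVec, ← Submonoid.coe_mul, mul_inv_cancel, OneMemClass.coe_one, one_mulVec]

theorem mem_Ann_emb (g : Matrix.symplecticGroup (Fin m) F) (ω : Ω) (v : Vc F m) :
    g.1 *ᵥ v ∈ Ann F m (emb g • ω) ↔ v ∈ Ann F m ω := by
  rw [mem_Ann, mem_Ann]
  constructor
  · intro h w hw
    have := h _ ((mem_Wst_emb g ω w).2 hw)
    rwa [sp_iso] at this
  · intro h w hw
    obtain ⟨w', rfl⟩ : ∃ w', g.1 *ᵥ w' = w := ⟨_, mulVec_inv_cancel g w⟩
    rw [sp_iso]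
    exact h w' ((mem_Wst_emb g ω w').1 hw)

theorem card_Ann_emb (g : Matrix.symplecticGroup (Fin m) F) (ω : Ω) :
    (Ann F m (emb g • ω)).card = (Ann F m ω).card := by
  refine (Finset.card_bij (fun v _ => g.1 *ᵥ v) (fun v hv => (mem_Ann_emb g ω v).2 hv) ?_ ?_).symm
  · intro v _ v' _ h
    have := congrArg ((g⁻¹).1 *ᵥ ·) h
    simpa [mulVec_mulVec, ← Submonoid.coe_mul] using this
  · intro y hy
    refine ⟨(g⁻¹).1 *ᵥ y, (mem_Ann_emb g ω _).1 ?_, mulVec_inv_cancel g y⟩
    rwa [mulVec_inv_cancel]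

theorem mem_Z0_tor (a : Fˣ) (ω : Ω) (c : F) :
    (a : F) * a * c ∈ Z0 F m (tor (m := m) a • ω) ↔ c ∈ Z0 F m ω := by
  rw [mem_Z0, mem_Z0, ← mul_smul]
  conv_lhs => rw [show (0 : Vc F m) = (a : F) • 0 by rw [smul_zero], ← tor_rho, mul_smul,
    smul_left_cancel_iff]

theorem mem_Wst_tor (a : Fˣ) (ω : Ω) (w : Vc F m) :
    (a : F) • w ∈ Wst F m (tor (m := m) a • ω) ↔ w ∈ Wst F m ω := by
  rw [mem_Wst, mem_Wst]
  constructor
  · rintro ⟨d, hd⟩
    refine ⟨((a : F) * a)⁻¹ * d, ?_⟩
    rw [show d = (a : F) * a * (((a : F) * a)⁻¹ * d) by field_simp, ← mul_smul, ← tor_rho,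
      mul_smul, smul_left_cancel_iff] at hd
    exact hd
  · rintro ⟨d, hd⟩
    exact ⟨(a : F) * a * d, by rw [← mul_smul, ← tor_rho, mul_smul, hd]⟩

theorem mem_Ann_tor (a : Fˣ) (ω : Ω) (v : Vc F m) :
    v ∈ Ann F m (tor (m := m) a • ω) ↔ (a : F) • v ∈ Ann F m ω := by
  rw [mem_Ann, mem_Ann]
  constructor
  · intro h w hw
    rw [map_smul, LinearMap.smul_apply, ← map_smul]
    exact h _ ((mem_Wst_tor a ω w).2 hw)
  · intro h w hw
    obtain ⟨w', rfl⟩ : ∃ w', (a : F) • w' = w := ⟨(a : F)⁻¹ • w, by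
      rw [smul_smul, mul_inv_cancel₀ a.ne_zero, one_smul]⟩
    have := h w' ((mem_Wst_tor a ω w').1 hw)
    rwa [map_smul, LinearMap.smul_apply, ← map_smul] at this

theorem card_Ann_tor (a : Fˣ) (ω : Ω) :
    (Ann F m (tor (m := m) a • ω)).card = (Ann F m ω).card := by
  refine Finset.card_bij (fun v _ => (a : F) • v) (fun v hv => (mem_Ann_tor a ω v).1 hv)
    (fun v _ v' _ h => smul_right_injective _ a.ne_zero h) fun y hy => ⟨(a : F)⁻¹ • y, ?_, ?_⟩
  · rwa [mem_Ann_tor, smul_smul, mul_inv_cancel₀ a.ne_zero, one_smul]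
  · rw [smul_smul, mul_inv_cancel₀ a.ne_zero, one_smul]

variable [Fintype Ω]

variable (m F) in
/-- The points with the same type. -/
noncomputable def sameT (ω : Ω) : Finset Ω :=
  Finset.univ.filter fun y => Z0 F m y = Z0 F m ω ∧ (Ann F m y).card = (Ann F m ω).card

theorem mem_sameT {ω y : Ω} :
    y ∈ sameT F m ω ↔ Z0 F m y = Z0 F m ω ∧ (Ann F m y).card = (Ann F m ω).card := by
  simp [sameT]

/-- The points of one type cover every nonzero vector equally often. -/
theorem card_family (ω : Ω) {x : Vc F m} (hx : x ≠ 0) (T : Finset Ω)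
    (hsub : T ⊆ sameT F m ω) (hmem : ∀ r ∈ T, x ∈ Ann F m r)
    (hdis : ∀ r ∈ T, ∀ r' ∈ T, r ≠ r' → r' ∉ orb F m r) :
    (Fintype.card F ^ (2 * m) - 1) * (T.card * (Fintype.card F * (Ann F m ω).card)) ≤
      (sameT F m ω).card * ((Ann F m ω).card - 1) * Nat.card (Z0 F m ω) := by
  set a := (Ann F m ω).card with ha
  set Y := sameT F m ω with hY
  set U := (Finset.univ : Finset (Vc F m)).erase 0 with hU
  set z := Nat.card (Z0 F m ω) with hz
  have hrow : ∀ u ∈ U, T.card * (Fintype.card F * a) ≤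
      (Y.filter fun y => u ∈ Ann F m y).card * z := by
    intro u hu
    obtain ⟨g, hg⟩ := sp_transitive m hx (Finset.ne_of_mem_erase hu)
    have hdisj : (T : Set Ω).PairwiseDisjoint fun r => orb F m (emb g • r) := by
      intro r hr r' hr' hne
      rw [Function.onFun, Finset.disjoint_left]
      intro y hy hy'
      refine hdis r hr r' hr' hne ?_
      obtain ⟨w, c, h⟩ := mem_orb.1 (mem_orb_of_inter hy hy')
      obtain ⟨w', rfl⟩ : ∃ w', g.1 *ᵥ w' = w := ⟨_, mulVec_inv_cancel g w⟩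
      rw [← mul_smul, ← emb_rho, mul_smul, smul_left_cancel_iff] at h
      exact mem_orb.2 ⟨w', c, h⟩
    have hle : T.biUnion (fun r => orb F m (emb g • r)) ⊆ Y.filter fun y => u ∈ Ann F m y := by
      intro y hy
      obtain ⟨r, hr, hy⟩ := Finset.mem_biUnion.1 hy
      obtain ⟨w, c, rfl⟩ := mem_orb.1 hy
      obtain ⟨h1, h2⟩ := mem_sameT.1 (hsub hr)
      refine Finset.mem_filter.2 ⟨mem_sameT.2 ⟨?_, ?_⟩, ?_⟩
      · rw [Z0_rho, Z0_emb, h1]
      · rw [Ann_rho, card_Ann_emb, h2]
      · rw [Ann_rho, ← hg, mem_Ann_emb]; exact hmem r hr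
    calc T.card * (Fintype.card F * a)
        = ∑ r ∈ T, (orb F m (emb g • r)).card * z := by
          rw [Finset.sum_congr rfl fun r hr => ?_, Finset.sum_const, smul_eq_mul]
          obtain ⟨h1, h2⟩ := mem_sameT.1 (hsub hr)
          rw [hz, show Z0 F m ω = Z0 F m (emb g • r) by rw [Z0_emb, h1], card_orb, card_Ann_emb, h2]
      _ = (T.biUnion fun r => orb F m (emb g • r)).card * z := by
          rw [Finset.card_biUnion hdisj, Finset.sum_mul]
      _ ≤ _ := Nat.mul_le_mul_right _ (Finset.card_le_card hle)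
  have h1 := Finset.card_nsmul_le_sum U _ _ hrow
  have hcol : ∀ y ∈ Y, (U.filter fun u => u ∈ Ann F m y).card ≤ a - 1 := by
    intro y hy
    rw [ha, ← (mem_sameT.1 hy).2, ← Finset.card_erase_of_mem (zero_mem_Ann y)]
    refine Finset.card_le_card fun u hu => ?_
    obtain ⟨hu1, hu2⟩ := Finset.mem_filter.1 hu
    exact Finset.mem_erase.2 ⟨Finset.ne_of_mem_erase hu1, hu2⟩
  have h2 := Finset.sum_le_card_nsmul Y _ _ hcol
  have hswap : ∑ u ∈ U, (Y.filter fun y => u ∈ Ann F m y).card =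
      ∑ y ∈ Y, (U.filter fun u => u ∈ Ann F m y).card := by
    simp only [Finset.card_filter]; exact Finset.sum_comm
  rw [← Finset.sum_mul, hswap] at h1
  have hUc : U.card = Fintype.card F ^ (2 * m) - 1 := by
    rw [hU, Finset.card_erase_of_mem (Finset.mem_univ _), Finset.card_univ, card_Vc]
  simp only [smul_eq_mul, hUc] at h1 h2
  exact h1.trans (Nat.mul_le_mul_right _ h2)

/-- The classes of the torus action on the part of the centre fixing a point. -/
noncomputable def zClasses (ω : Ω) : Finset (AddSubgroup F) :=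
  (Finset.univ : Finset Fˣ).image fun a => Z0 F m (tor (m := m) a • ω)

theorem classes_mul (ω : Ω) :
    (zClasses (F := F) (m := m) ω).card * (sameT F m ω).card ≤ Fintype.card Ω := by
  set P := zClasses (F := F) (m := m) ω with hP
  rw [← Finset.card_univ (α := Ω)]
  calc P.card * (sameT F m ω).card = ∑ _Z ∈ P, (sameT F m ω).card := by
        rw [Finset.sum_const, smul_eq_mul]
    _ ≤ ∑ Z ∈ P, (Finset.univ.filter fun y : Ω => Z0 F m y = Z).card := by
        refine Finset.sum_le_sum fun Z hZ => ?_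
        obtain ⟨a, -, rfl⟩ := Finset.mem_image.1 hZ
        refine Finset.card_le_card_of_injOn (fun y => tor (m := m) a • y) (fun y hy => ?_)
          (fun y _ y' _ h => smul_left_cancel _ h)
        refine Finset.mem_filter.2 ⟨Finset.mem_univ _, ?_⟩
        have hy1 := (mem_sameT.1 hy).1
        ext c
        obtain ⟨d, rfl⟩ : ∃ d, (a : F) * a * d = c :=
          ⟨((a : F) * a)⁻¹ * c, by field_simp⟩
        rw [mem_Z0_tor, mem_Z0_tor, hy1]
    _ = (P.biUnion fun Z => Finset.univ.filter fun y : Ω => Z0 F m y = Z).card := by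
        refine (Finset.card_biUnion fun Z _ Z' _ hne => ?_).symm
        rw [Function.onFun, Finset.disjoint_left]
        exact fun y h h' => hne ((Finset.mem_filter.1 h).2 ▸ (Finset.mem_filter.1 h').2)
    _ ≤ _ := Finset.card_le_univ _

/-- The number of scalars whose character is trivial on the part of the centre fixing the point. -/
noncomputable def dual0 (Z : AddSubgroup F) : Finset F := perp (fun d => (psi F).mulShift d) Z

theorem card_dual0 (Z : AddSubgroup F) : (dual0 Z).card * Nat.card Z = Fintype.card F :=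
  card_perp _ (AddChar.to_mulShift_inj_of_isPrimitive psi_primitive) Z

theorem classes_cover (ω : Ω) (hZ : Z0 F m ω ≠ ⊤) {b : ℕ}
    (hb : ∀ x : F, (Finset.univ.filter fun a : Fˣ => (a : F) * a = x).card ≤ b) :
    Fintype.card F - 1 ≤ b * ((zClasses (F := F) (m := m) ω).card * ((dual0 (Z0 F m ω)).card - 1)) := by
  obtain ⟨c, hc⟩ : ∃ c, c ∉ Z0 F m ω := by
    by_contra h
    push Not at h
    exact hZ (eq_top_iff.2 fun c _ => h c)
  obtain ⟨d0, hd0, hd0c⟩ := exists_perp (fun d => (psi F).mulShift d)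
    (AddChar.to_mulShift_inj_of_isPrimitive psi_primitive) hc
  have hd00 : d0 ≠ 0 := fun h => hd0c (by
    show (psi F).mulShift d0 c = 1
    simp [h, AddChar.mulShift_apply])
  set S := (Finset.univ : Finset Fˣ).image fun a : Fˣ => d0 / ((a : F) * a) with hS
  have h1 : Fintype.card F - 1 ≤ b * S.card := by
    rw [← Fintype.card_units, ← Finset.card_univ]
    refine Finset.card_le_mul_card_image _ b fun s hs => ?_
    refine le_trans (Finset.card_le_card fun a ha => ?_) (hb (d0 / s))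
    have h := (Finset.mem_filter.1 ha).2
    refine Finset.mem_filter.2 ⟨Finset.mem_univ _, ?_⟩
    rw [← h]
    field_simp
  refine h1.trans (Nat.mul_le_mul_left b ?_)
  have h2 : S ⊆ (zClasses (F := F) (m := m) ω).biUnion fun Z => (dual0 Z).erase 0 := by
    intro s hs
    obtain ⟨a, -, rfl⟩ := Finset.mem_image.1 hs
    refine Finset.mem_biUnion.2 ⟨_, Finset.mem_image_of_mem _ (Finset.mem_univ a),
      Finset.mem_erase.2 ⟨div_ne_zero hd00 (mul_ne_zero a.ne_zero a.ne_zero), (mem_perp _).2 ?_⟩⟩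
    intro e he
    obtain ⟨e', rfl⟩ : ∃ e', (a : F) * a * e' = e := ⟨((a : F) * a)⁻¹ * e, by field_simp⟩
    have h3 := (mem_perp _).1 hd0 e' ((mem_Z0_tor a ω e').1 he)
    simp only [AddChar.mulShift_apply] at h3 ⊢
    rwa [show d0 / ((a : F) * a) * ((a : F) * a * e') = d0 * e' by field_simp]
  refine ((Finset.card_le_card h2).trans Finset.card_biUnion_le).trans ?_
  rw [← smul_eq_mul]
  refine Finset.sum_le_card_nsmul _ _ _ fun Z hZ' => ?_
  obtain ⟨a, -, rfl⟩ := Finset.mem_image.1 hZ'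
  rw [dual0, Finset.card_erase_of_mem ((mem_perp _).2 fun e _ => by simp)]
  refine Nat.sub_le_sub_right (le_of_eq ?_) _
  have hcard : Nat.card (Z0 F m (tor (m := m) a • ω)) = Nat.card (Z0 F m ω) := by
    refine (Nat.card_congr ⟨fun c => ⟨(a : F) * a * c.1, (mem_Z0_tor a ω c.1).2 c.2⟩,
      fun c => ⟨((a : F) * a)⁻¹ * c.1, (mem_Z0_tor a ω _).1 (by
        rw [← mul_assoc, mul_inv_cancel₀ (mul_ne_zero a.ne_zero a.ne_zero), one_mul]; exact c.2)⟩,
      fun c => Subtype.ext (inv_mul_cancel_left₀ (mul_ne_zero a.ne_zero a.ne_zero) _),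
      fun c => Subtype.ext (mul_inv_cancel_left₀ (mul_ne_zero a.ne_zero a.ne_zero) _)⟩).symm
  have e1 := card_dual0 (Z0 F m (tor (m := m) a • ω))
  rw [hcard, ← card_dual0 (Z0 F m ω)] at e1
  exact Nat.eq_of_mul_eq_mul_right Nat.card_pos e1

end Cfsg.Agent.Lib.MinIndexSp
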