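import Cfsg.Agent.Lib.MinIndexSp.Dual

/-!
The stabiliser of a vector in a symplectic group over any finite field, in coordinates.
-/

set_option autoImplicit false

namespace Cfsg.Agent.Lib.MinIndexSp

open Matrix Module Cfsg.Agent.Lib.Forms Cfsg.Agent.Lib.Classical
open Cfsg.Agent.Lib.MinDegForms.SpEven (Vc up down eVec fVec decomp down_add down_smul down_up down_eVec up_add up_smul up_zero mkSp mkSp_mulVec)

universe u

variable {F : Type u} [Field F] {n m : ℕ}

theorem stdB_eq (x y : Vc F n) :
    stdB n F x y = ∑ i, (x (.inr i) * y (.inl i) - x (.inl i) * y (.inr i)) := by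
  rw [stdB_apply, Cfsg.sympForm]
  simp [Matrix.J, fromBlocks_mulVec, dotProduct, neg_mulVec, Finset.sum_sub_distrib,
    Fintype.sum_sum_type]
  ring

theorem bself (x : Vc F n) : stdB n F x x = 0 := (stdB_isAlt n).self_eq_zero x

theorem bneg (x y : Vc F n) : stdB n F y x = -stdB n F x y := ((stdB_isAlt n).neg_eq x y).symm

theorem B_e (x : Vc F (m + 1)) : stdB (m + 1) F x (eVec F m) = x (.inr 0) := by
  simp [stdB_eq, Fin.sum_univ_succ, eVec]

theorem B_f (x : Vc F (m + 1)) : stdB (m + 1) F x (fVec F m) = -x (.inl 0) := by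
  simp [stdB_eq, Fin.sum_univ_succ, fVec]

theorem B_up (w : Vc F m) (x : Vc F (m + 1)) : stdB (m + 1) F x (up w) = stdB m F (down x) w := by
  simp [stdB_eq, Fin.sum_univ_succ, up, down]

theorem up_inl (w : Vc F m) : up w (.inl 0) = 0 := by simp [up]

theorem up_inr (w : Vc F m) : up w (.inr 0) = 0 := by simp [up]

theorem B_up_e (w : Vc F m) : stdB (m + 1) F (up w) (eVec F m) = 0 := by rw [B_e, up_inr]

theorem B_e_up (w : Vc F m) : stdB (m + 1) F (eVec F m) (up w) = 0 := by
  rw [bneg, B_up_e, neg_zero]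

theorem B_up_up (v w : Vc F m) : stdB (m + 1) F (up v) (up w) = stdB m F v w := by
  rw [B_up, down_up]

theorem eVec_ne_zero : eVec F m ≠ 0 := by simp [eVec]

theorem up_injective : Function.Injective (up : Vc F m → Vc F (m + 1)) := fun v w h => by
  rw [← down_up v, h, down_up]

theorem up_ne_zero {w : Vc F m} (hw : w ≠ 0) : up w ≠ 0 := fun h =>
  hw (up_injective (h.trans up_zero.symm))

theorem perp_e (x : Vc F (m + 1)) (hx : stdB (m + 1) F x (eVec F m) = 0) :
    x = x (.inl 0) • eVec F m + up (down x) := by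
  conv_lhs => rw [decomp x]
  rw [B_e] at hx
  rw [hx, zero_smul, add_zero]

/-- The linear map of a radical element. -/
noncomputable def rhoLin (w : Vc F m) (c : F) : Vc F (m + 1) →ₗ[F] Vc F (m + 1) where
  toFun x := x + (c * stdB (m + 1) F x (eVec F m) + stdB (m + 1) F x (up w)) • eVec F m +
    stdB (m + 1) F x (eVec F m) • up w
  map_add' x y := by simp only [map_add, LinearMap.add_apply]; module
  map_smul' a x := by
    simp only [map_smul, LinearMap.smul_apply, smul_eq_mul, RingHom.id_apply]; module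

theorem rhoLin_iso (w : Vc F m) (c : F) (x y : Vc F (m + 1)) :
    stdB (m + 1) F (rhoLin w c x) (rhoLin w c y) = stdB (m + 1) F x y := by
  simp only [rhoLin, LinearMap.coe_mk, AddHom.coe_mk, map_add, map_smul, LinearMap.add_apply,
    LinearMap.smul_apply, smul_eq_mul, bself, B_up_e, B_e_up]
  rw [bneg y (eVec F m), bneg y (up w)]
  ring

/-- An element of the radical. -/
noncomputable def rho (w : Vc F m) (c : F) : Matrix.symplecticGroup (Fin (m + 1)) F :=
  mkSp (rhoLin w c) (rhoLin_iso w c)

theorem rho_mulVec (w : Vc F m) (c : F) (x : Vc F (m + 1)) :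
    (rho w c).1 *ᵥ x = x + (c * x (.inr 0) + stdB m F (down x) w) • eVec F m +
      x (.inr 0) • up w := by
  rw [rho, mkSp_mulVec, ← B_e x, ← B_up]; rfl

theorem rho_mul (w w' : Vc F m) (c c' : F) :
    rho w c * rho w' c' = rho (w + w') (c + c' + stdB m F w' w) := by
  refine sp_ext fun x => ?_
  rw [Submonoid.coe_mul, ← mulVec_mulVec, rho_mulVec w' c' x, rho_mulVec, rho_mulVec]
  simp only [down_add, down_smul, down_eVec, down_up, smul_zero, add_zero, map_add, map_smul,
    LinearMap.add_apply, LinearMap.smul_apply, smul_eq_mul, Pi.add_apply, Pi.smul_apply, up_inr,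
    up_add, show eVec F m (.inr 0) = 0 by simp [eVec], mul_zero]
  module

theorem rho_central (c : F) : rho (0 : Vc F m) c = spT (m + 1) (eVec F m) c := by
  refine sp_ext fun x => ?_
  rw [rho_mulVec, spT_mulVec, B_e]
  simp [up_zero]

theorem rho_zero : rho (0 : Vc F m) (0 : F) = 1 := by rw [rho_central, spT_zero_right]

theorem rho_inv (w : Vc F m) (c : F) : (rho w c)⁻¹ = rho (-w) (-c) := by
  refine inv_eq_of_mul_eq_one_right ?_
  rw [rho_mul, add_neg_cancel, add_neg_cancel, map_neg, LinearMap.neg_apply, bself, neg_zero,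
    add_zero, rho_zero]

theorem rho_central_mul (w : Vc F m) (c d : F) : rho 0 d * rho w c = rho w (d + c) := by
  rw [rho_mul, zero_add, map_zero, add_zero]

theorem rho_mul_central (w : Vc F m) (c d : F) : rho w c * rho 0 d = rho w (c + d) := by
  rw [rho_mul, add_zero, map_zero, LinearMap.zero_apply, add_zero]

/-- The embedding of the smaller group. -/
noncomputable def embLin (A : Matrix (Fin m ⊕ Fin m) (Fin m ⊕ Fin m) F) :
    Vc F (m + 1) →ₗ[F] Vc F (m + 1) where
  toFun x := x (.inl 0) • eVec F m + x (.inr 0) • fVec F m + up (A *ᵥ down x)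
  map_add' x y := by
    simp only [Pi.add_apply, down_add, mulVec_add, up_add]; module
  map_smul' a x := by
    simp only [Pi.smul_apply, smul_eq_mul, RingHom.id_apply, down_smul, mulVec_smul, up_smul]; module

theorem embLin_coords (A : Matrix (Fin m ⊕ Fin m) (Fin m ⊕ Fin m) F) (x : Vc F (m + 1)) :
    embLin A x (.inl 0) = x (.inl 0) ∧ embLin A x (.inr 0) = x (.inr 0) ∧
      down (embLin A x) = A *ᵥ down x := by
  refine ⟨by simp [embLin, eVec, fVec, up], by simp [embLin, eVec, fVec, up], ?_⟩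
  funext i
  rcases i with i | i <;> simp [embLin, eVec, fVec, up, down]

theorem stdB_split (x y : Vc F (m + 1)) : stdB (m + 1) F x y =
    x (.inr 0) * y (.inl 0) - x (.inl 0) * y (.inr 0) + stdB m F (down x) (down y) := by
  simp [stdB_eq, Fin.sum_univ_succ, down]
  ring

/-- The smaller group inside the larger one. -/
noncomputable def emb :
    Matrix.symplecticGroup (Fin m) F →* Matrix.symplecticGroup (Fin (m + 1)) F where
  toFun g := mkSp (embLin g.1) fun x y => by
    obtain ⟨a1, a2, a3⟩ := embLin_coords g.1 x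
    obtain ⟨b1, b2, b3⟩ := embLin_coords g.1 y
    rw [stdB_split, stdB_split x y, a1, a2, a3, b1, b2, b3, sp_iso]
  map_one' := sp_ext fun x => by
    rw [mkSp_mulVec, OneMemClass.coe_one, OneMemClass.coe_one, one_mulVec]
    change x (.inl 0) • eVec F m + x (.inr 0) • fVec F m + up ((1 : Matrix _ _ F) *ᵥ down x) = x
    rw [one_mulVec, ← decomp]
  map_mul' g h := sp_ext fun x => by
    obtain ⟨a1, a2, a3⟩ := embLin_coords h.1 x
    rw [Submonoid.coe_mul _ (mkSp _ _), ← mulVec_mulVec, mkSp_mulVec, mkSp_mulVec, mkSp_mulVec]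
    change x (.inl 0) • eVec F m + x (.inr 0) • fVec F m + up ((g * h).1 *ᵥ down x) =
      embLin h.1 x (.inl 0) • eVec F m + embLin h.1 x (.inr 0) • fVec F m +
        up (g.1 *ᵥ down (embLin h.1 x))
    rw [a1, a2, a3, Submonoid.coe_mul, mulVec_mulVec]

theorem emb_mulVec (g : Matrix.symplecticGroup (Fin m) F) (x : Vc F (m + 1)) :
    (emb g).1 *ᵥ x = x (.inl 0) • eVec F m + x (.inr 0) • fVec F m + up (g.1 *ᵥ down x) :=
  by simp only [emb, MonoidHom.coe_mk, OneHom.coe_mk, mkSp_mulVec]; rfl

theorem emb_spT (w : Vc F m) (a : F) : emb (spT m w a) = spT (m + 1) (up w) a := by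
  refine sp_ext fun x => ?_
  rw [emb_mulVec, spT_mulVec, spT_mulVec, B_up, up_add, up_smul]
  conv_rhs => rw [decomp x]
  have : down (x (.inl 0) • eVec F m + x (.inr 0) • fVec F m + up (down x)) = down x := by
    rw [← decomp]
  rw [this]
  abel

theorem emb_rho (g : Matrix.symplecticGroup (Fin m) F) (w : Vc F m) (c : F) :
    emb g * rho w c = rho (g.1 *ᵥ w) c * emb g := by
  refine sp_ext fun x => ?_
  rw [Submonoid.coe_mul, Submonoid.coe_mul, ← mulVec_mulVec, ← mulVec_mulVec, rho_mulVec, rho_mulVec]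
  obtain ⟨a1, a2, a3⟩ := embLin_coords g.1 x
  have e : (emb g).1 *ᵥ x = embLin g.1 x := emb_mulVec g x
  have ee : (emb g).1 *ᵥ eVec F m = eVec F m := by
    rw [emb_mulVec, down_eVec, mulVec_zero, up_zero]
    simp [eVec, fVec]
  have eu : (emb g).1 *ᵥ up w = up (g.1 *ᵥ w) := by
    rw [emb_mulVec, down_up]; simp [up]
  rw [mulVec_add, mulVec_add, mulVec_smul, mulVec_smul, ee, eu, e, a2, a3, sp_iso]

/-- The linear map of a torus element. -/
noncomputable def torusLin (a : F) : Vc F (m + 1) →ₗ[F] Vc F (m + 1) where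
  toFun x := (a * x (.inl 0)) • eVec F m + (a⁻¹ * x (.inr 0)) • fVec F m + up (down x)
  map_add' x y := by simp only [Pi.add_apply, down_add, up_add]; module
  map_smul' c x := by
    simp only [Pi.smul_apply, smul_eq_mul, RingHom.id_apply, down_smul, up_smul]; module

theorem torusLin_coords (a : F) (x : Vc F (m + 1)) :
    torusLin a x (.inl 0) = a * x (.inl 0) ∧ torusLin a x (.inr 0) = a⁻¹ * x (.inr 0) ∧
      down (torusLin a x) = down x := by
  refine ⟨by simp [torusLin, eVec, fVec, up], by simp [torusLin, eVec, fVec, up], ?_⟩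
  funext i
  rcases i with i | i <;> simp [torusLin, eVec, fVec, up, down]

theorem torusLin_iso (a : Fˣ) (x y : Vc F (m + 1)) :
    stdB (m + 1) F (torusLin (a : F) x) (torusLin (a : F) y) = stdB (m + 1) F x y := by
  obtain ⟨a1, a2, a3⟩ := torusLin_coords (a : F) x
  obtain ⟨b1, b2, b3⟩ := torusLin_coords (a : F) y
  rw [stdB_split, stdB_split x y, a1, a2, a3, b1, b2, b3]
  field_simp

/-- The torus. -/
noncomputable def tor (a : Fˣ) : Matrix.symplecticGroup (Fin (m + 1)) F :=
  mkSp (torusLin (a : F)) (torusLin_iso a)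

theorem tor_mulVec (a : Fˣ) (x : Vc F (m + 1)) : (tor a).1 *ᵥ x = torusLin (a : F) x :=
  mkSp_mulVec _ _ _

theorem tor_rho (a : Fˣ) (w : Vc F m) (c : F) :
    tor a * rho w c = rho ((a : F) • w) ((a : F) * (a : F) * c) * tor a := by
  refine sp_ext fun x => ?_
  rw [Submonoid.coe_mul, Submonoid.coe_mul, ← mulVec_mulVec, ← mulVec_mulVec, rho_mulVec,
    rho_mulVec, tor_mulVec, tor_mulVec, map_add, map_add, map_smul, map_smul]
  obtain ⟨a1, a2, a3⟩ := torusLin_coords (a : F) x
  have ee : torusLin (a : F) (eVec F m) = (a : F) • eVec F m := by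
    simp [torusLin, down_eVec, up_zero]
    simp [eVec]
  have eu : torusLin (a : F) (up w) = up w := by
    simp [torusLin, down_up]; simp [up]
  simp only [ee, eu, a2, a3, up_smul, map_smul, smul_smul, smul_eq_mul]
  congr 2
  · congr 1
    field_simp
  · field_simp

theorem tor_emb (a : Fˣ) (g : Matrix.symplecticGroup (Fin m) F) :
    tor a * emb g = emb g * tor a := by
  refine sp_ext fun x => ?_
  rw [Submonoid.coe_mul, Submonoid.coe_mul, ← mulVec_mulVec, ← mulVec_mulVec, tor_mulVec, tor_mulVec,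
    emb_mulVec, emb_mulVec]
  obtain ⟨a1, a2, a3⟩ := torusLin_coords (a : F) x
  obtain ⟨b1, b2, b3⟩ := embLin_coords g.1 x
  change torusLin (a : F) (embLin g.1 x) = _
  rw [a1, a2, a3]
  change (_ * embLin g.1 x (.inl 0)) • _ + (_ * embLin g.1 x (.inr 0)) • _ +
    up (down (embLin g.1 x)) = _
  rw [b1, b2, b3]

/-- A transvection on a line of the perpendicular space of the first basis vector. -/
theorem spT_shift_eq (ν s : F) (a : Vc F m) :
    spT (m + 1) (ν • eVec F m + up a) s = rho ((s * ν) • a) (s * (ν * ν)) * emb (spT m a s) := by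
  refine sp_ext fun x => ?_
  rw [Submonoid.coe_mul, ← mulVec_mulVec, emb_spT, spT_mulVec, spT_mulVec, rho_mulVec]
  simp only [down_add, down_smul, down_up, map_add, map_smul, LinearMap.add_apply,
    LinearMap.smul_apply, smul_eq_mul, bself, Pi.add_apply, Pi.smul_apply, up_inr, up_smul, B_e,
    B_up, mul_zero, add_zero]
  module

/-- The radical of another vector of the perpendicular space. -/
theorem rho_frame (h : Matrix.symplecticGroup (Fin (m + 1)) F) (u w : Vc F m) (l μ c : F)
    (he : h.1 *ᵥ eVec F m = up u) (hw : h.1 *ᵥ up w = l • eVec F m - μ • up u) :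
    h * rho w c * h⁻¹ = rho (l • u) 0 * emb (spT m u (c - 2 * μ)) := by
  rw [mul_inv_eq_iff_eq_mul]
  refine sp_ext fun y => ?_
  rw [emb_spT, Submonoid.coe_mul, Submonoid.coe_mul, Submonoid.coe_mul, ← mulVec_mulVec,
    ← mulVec_mulVec, ← mulVec_mulVec, rho_mulVec, spT_mulVec, mulVec_add, mulVec_add, mulVec_smul,
    mulVec_smul, he, hw, rho_mulVec]
  set x := h.1 *ᵥ y with hx
  have h1 : stdB (m + 1) F x (up u) = y (.inr 0) := by
    rw [hx, ← he, sp_iso, B_e]
  have h2 : stdB (m + 1) F x (h.1 *ᵥ up w) = stdB m F (down y) w := by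
    rw [hx, sp_iso, B_up]
  rw [hw, map_sub, map_smul, map_smul, smul_eq_mul, smul_eq_mul, h1, B_e] at h2
  have h3 : stdB m F (down x) u = y (.inr 0) := by rw [← B_up, h1]
  rw [← h2]
  simp only [down_add, down_smul, down_up, map_add, map_smul, LinearMap.add_apply,
    LinearMap.smul_apply, smul_eq_mul, bself, Pi.add_apply, Pi.smul_apply, up_inr, up_smul, h1, h3,
    mul_zero, add_zero]
  module

end Cfsg.Agent.Lib.MinIndexSp
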